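import Cfsg.Agent.H45.ItSpec
import Cfsg.Agent.H90.Trans
import Cfsg.Agent.H87.Simple

/-! Tower IT (row S4724), slot EV: the case of an even complement. -/

set_option autoImplicit false

namespace H55.ItEv

open MulAction Subgroup H45.It H2.PR

universe u v

variable {G : Type u} {Ω : Type v} [Group G] [Finite G] [MulAction G Ω]

/-- The stabiliser of three points. -/
abbrev K3 (G : Type u) [Group G] [MulAction G Ω] (a b c : Ω) : Subgroup G :=
  fixingSubgroup G ({a, b, c} : Set Ω)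

omit [Finite G] in
theorem mem_K3 {a b c : Ω} {g : G} : g ∈ K3 G a b c ↔ g • a = a ∧ g • b = b ∧ g • c = c := by
  simp [mem_fixingSubgroup_iff]

/-- The count of the conjugates of an involution with one fixed point. -/
theorem cnt (h3 : IsMultiplyPretransitive G Ω 3) {z : G} (zz : z * z = 1) {o : Ω} (ho : z • o = o)
    (hu : ∀ u, z • u = u → u = o) {a b c : Ω} (ab : a ≠ b) (ac : a ≠ c) (bc : b ≠ c) :
    Nat.card {u : Ω // u ≠ o} * Nat.card (K3 G a b c) ≤
      Nat.card {w : G // IsConj z w ∧ w • a = a ∧ w • b = c ∧ w • c = b} *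
        Nat.card (centralizer ({z} : Set G)) := by
  have hz : ∀ u : Ω, z • z • u = u := fun u => by rw [← mul_smul, zz, one_smul]
  choose g g1 g2 g3 using fun u : {u : Ω // u ≠ o} => H90.three_trans h3 (a := o) (b := u.1)
    (c := z • u.1) u.2.symm (fun e => u.2 (by rw [← hz u.1, ← e, ho]))
    (fun e => u.2 (hu _ e.symm)) ab ac bc
  choose r hr using fun w : {w : G // IsConj z w ∧ w • a = a ∧ w • b = c ∧ w • c = b} =>
    isConj_iff.1 w.2.1
  let W : {u : Ω // u ≠ o} × K3 G a b c →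
      {w : G // IsConj z w ∧ w • a = a ∧ w • b = c ∧ w • c = b} := fun s =>
    ⟨s.2 * g s.1 * z * (s.2 * g s.1)⁻¹, isConj_iff.2 ⟨_, rfl⟩, by
      obtain ⟨k1, k2, k3⟩ := mem_K3.1 s.2.2
      have e1 : (s.2 * g s.1) • o = a := by rw [mul_smul, g1, k1]
      have e2 : (s.2 * g s.1) • s.1.1 = b := by rw [mul_smul, g2, k2]
      have e3 : (s.2 * g s.1) • z • s.1.1 = c := by rw [mul_smul, g3, k3]
      refine ⟨?_, ?_, ?_⟩ <;> rw [mul_smul, mul_smul]
      · rw [inv_smul_eq_iff.2 e1.symm, ho, e1]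
      · rw [inv_smul_eq_iff.2 e2.symm, e3]
      · rw [inv_smul_eq_iff.2 e3.symm, hz, e2]⟩
  rw [← Nat.card_prod, ← Nat.card_prod]
  refine Nat.card_le_card_of_injective (fun s => (W s, ⟨(r (W s))⁻¹ * (s.2 * g s.1),
    mem_centralizer_singleton_iff.2 ?_⟩)) fun s t e => ?_
  · have := hr (W s)
    simp only [W] at this
    generalize r _ = q at this ⊢
    generalize (s.2 : G) * g s.1 = m at this ⊢
    calc q⁻¹ * m * z = q⁻¹ * (m * z * m⁻¹) * m := by group
      _ = _ := by rw [← this]; group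
  · have e1 : W s = W t := congrArg Prod.fst e
    have e2 : (r (W s))⁻¹ * (s.2 * g s.1) = (r (W t))⁻¹ * (t.2 * g t.1) :=
      congrArg (fun x => (x.2 : G)) e
    rw [e1, mul_right_inj] at e2
    have e3 : s.1 = t.1 := Subtype.ext (MulAction.injective ((s.2 : G) * g s.1) (by
      simp only
      rw [mul_smul, g2, (mem_K3.1 s.2.2).2.1, e2, mul_smul, g2, (mem_K3.1 t.2.2).2.1]))
    rw [e3, mul_left_inj] at e2
    exact Prod.ext e3 (Subtype.ext e2)

theorem card_le {a b c : Ω} {g : G} (g1 : g • a = a) (g2 : g • b = c) (g3 : g • c = b) :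
    Nat.card {w : G // w • a = a ∧ w • b = c ∧ w • c = b} ≤ Nat.card (K3 G a b c) :=
  Nat.card_le_card_of_injective (fun w => ⟨g⁻¹ * w.1, mem_K3.2 ⟨by
    rw [mul_smul, w.2.1, inv_smul_eq_iff, g1], by rw [mul_smul, w.2.2.1, inv_smul_eq_iff, g2],
    by rw [mul_smul, w.2.2.2, inv_smul_eq_iff, g3]⟩⟩)
    fun _ _ e => Subtype.ext (mul_left_cancel (congrArg Subtype.val e))

/-- If all elements that fix a point and swap two points are involutions with one fixed point, the
stabiliser of four points is trivial. -/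
theorem four [FaithfulSMul G Ω] (h3 : IsMultiplyPretransitive G Ω 3)
    (H : ∀ a b c : Ω, a ≠ b → a ≠ c → b ≠ c → ∀ g : G, g • a = a → g • b = c → g • c = b →
      g * g = 1 ∧ ∀ u, g • u = u → u = a) :
    (∀ (a b : Ω) (g : G), a ≠ b → g • a = a → g • b = b → Odd (orderOf g)) ∧
      ∀ (a b c d : Ω) (k : G), a ≠ b → a ≠ c → b ≠ c → d ≠ a → d ≠ b → d ≠ c → k ∈ K3 G a b c →
        k • d = d → k = 1 := by
  have A : ∀ (a b : Ω) (g : G), a ≠ b → g • a = a → g • b = b → g * g = 1 → g = 1 := by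
    intro a b g ab ha hb gg
    refine eq_of_smul_eq_smul (α := Ω) fun c => ?_
    rw [one_smul]
    by_contra hc
    exact ab ((H a c (g • c) (fun e => hc (e ▸ ha)) (fun e => hc (by
      rw [← e, MulAction.injective g (ha.trans e)])) (Ne.symm hc) g ha rfl
      (by rw [← mul_smul, gg, one_smul])).2 b hb).symm
  have B : ∀ (a b : Ω) (g : G), a ≠ b → g • a = a → g • b = b → Odd (orderOf g) := by
    intro a b g ab ha hb
    rw [← Nat.not_even_iff_odd]
    rintro ⟨m, hm⟩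
    have h0 := orderOf_pos g
    exact pow_ne_one_of_lt_orderOf (n := m) (by omega) (by omega) (A a b _ ab
      (pow_mem (mem_stabilizer_iff.2 ha) m) (pow_mem (mem_stabilizer_iff.2 hb) m)
      (by rw [← pow_add, ← hm, pow_orderOf_eq_one]))
  refine ⟨B, fun a b c d k ab ac bc da db dc hk kd => ?_⟩
  obtain ⟨ka, kb, kc⟩ := mem_K3.1 hk
  have C : ∀ b c : Ω, a ≠ b → a ≠ c → b ≠ c → k • b = b → k • c = c → ∃ w : G, w • a = a ∧
      w • b = c ∧ w * k * w⁻¹ = k⁻¹ := fun b c ab ac bc kb kc => by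
    obtain ⟨w, w1, w2, w3⟩ := H90.three_trans h3 ab ac bc ac ab bc.symm |>.imp
      fun w (h : w • a = a ∧ w • b = c ∧ w • c = b) => h
    have e1 := (H a b c ab ac bc w w1 w2 w3).1
    have e2 := (H a b c ab ac bc (w * k) (by rw [mul_smul, ka, w1]) (by rw [mul_smul, kb, w2])
      (by rw [mul_smul, kc, w3])).1
    refine ⟨w, w1, w2, ?_⟩
    rw [inv_eq_of_mul_eq_one_right e1, eq_inv_iff_mul_eq_one, mul_assoc, e2]
  obtain ⟨w1, a1, b1, c1⟩ := C b c ab ac bc kb kc
  obtain ⟨w3, a3, b3, c3⟩ := C c d ac da.symm dc.symm kc kd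
  obtain ⟨w2, a2, b2, c2⟩ := C d b da.symm ab db kd kb
  have e : (w2 * w3 * w1) * k * (w2 * w3 * w1)⁻¹ = k⁻¹ := by
    calc _ = w2 * (w3 * (w1 * k * w1⁻¹) * w3⁻¹) * w2⁻¹ := by group
      _ = w2 * (w3 * k * w3⁻¹)⁻¹ * w2⁻¹ := by rw [c1]; group
      _ = _ := by rw [c3, inv_inv, c2]
  obtain ⟨m, hm⟩ := B a b (w2 * w3 * w1) ab (by rw [mul_smul, mul_smul, a1, a3, a2])
    (by rw [mul_smul, mul_smul, b1, b3, b2])
  generalize w2 * w3 * w1 = g at e hm
  have e1 : Commute (g ^ 2) k := by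
    rw [Commute, SemiconjBy, ← mul_inv_eq_iff_eq_mul]
    calc _ = g * (g * k * g⁻¹) * g⁻¹ := by rw [pow_two]; group
      _ = (g * k * g⁻¹)⁻¹ := by nth_rewrite 1 [e]; group
      _ = k := by rw [e, inv_inv]
  have e2 : Commute g k := by
    have := e1.pow_left (m + 1)
    rwa [← pow_mul, show 2 * (m + 1) = 2 * m + 1 + 1 by ring, pow_succ, ← hm, pow_orderOf_eq_one,
      one_mul] at this
  rw [e2.eq, mul_inv_cancel_right, eq_inv_iff_mul_eq_one] at e
  exact A a b k ab ka kb e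

theorem card_dvd [Finite Ω] {a b c : Ω} (ab : a ≠ b) (ac : a ≠ c) (bc : b ≠ c)
    (h : ∀ d, d ≠ a → d ≠ b → d ≠ c → ∀ k ∈ K3 G a b c, k • d = d → k = 1) :
    ∃ r, Nat.card Ω + 3 * (Nat.card (K3 G a b c) - 1) = r * Nat.card (K3 G a b c) := by
  classical
  cases nonempty_fintype (K3 G a b c)
  cases nonempty_fintype Ω
  have := sum_card_fixedBy_eq_card_orbits_mul_card_group (K3 G a b c) Ω
  rw [← Finset.add_sum_erase _ _ (Finset.mem_univ 1), Finset.sum_congr rfl (g := fun _ => 3)] at this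
  · refine ⟨_, Eq.trans ?_ (this.trans (by rw [Nat.card_eq_fintype_card]))⟩
    simp [mul_comm]
  · intro k hk
    rw [← Nat.card_eq_fintype_card, Nat.card_coe_set_eq, Set.ncard_eq_three]
    refine ⟨a, b, c, ab, ac, bc, Set.ext fun d => ⟨fun hd => ?_, fun hd => k.2 ⟨d, hd⟩⟩⟩
    by_contra hn
    simp only [Set.mem_insert_iff, Set.mem_singleton_iff, not_or] at hn
    exact (Finset.mem_erase.1 hk).1 (Subtype.ext (h d hn.1 hn.2.1 hn.2.2 k k.2 hd))

theorem jobEv : H45.It.JobEv.{u, v} := by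
  classical
  intro G Ω _ _ _ _ _ _ p e h hp hΩ P x y ψ S he
  have L := S.lo
  have := S.simple
  cases nonempty_fintype Ω
  obtain ⟨a₀, ha₀⟩ : ∃ a : Ω, y • a ≠ a := by
    by_contra hn
    push Not at hn
    exact L.ne (eq_of_smul_eq_smul (α := Ω) fun a => by rw [hn, one_smul])
  obtain ⟨ε, -, hε⟩ := H90.exists_coord hΩ L.pow_p ha₀
  have fx : ∀ i, ¬ e ∣ i → ∃ o : Ω, x ^ i • o = o ∧ ∀ u, x ^ i • u = u → u = o := fun i hi => by
    have h1 := H90.affine_of_conj_eq_pow hε (g := x ^ i) (k := h ^ i) (by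
      simpa using L.pow_mul_pow i 1)
    have h2 : (1 : ZMod p) - (h : ZMod p) ^ i ≠ 0 := fun e0 => hi (by
      rw [← L.oh, orderOf_dvd_iff_pow_eq_one]; exact (sub_eq_zero.1 e0).symm)
    generalize ε.symm (x ^ i • ε 0) = t at h1
    refine ⟨ε (t / (1 - (h : ZMod p) ^ i)), ?_, fun u hu => ?_⟩
    · rw [h1]; congr 1; push_cast; field_simp; ring
    · obtain ⟨j, rfl⟩ := ε.surjective u
      rw [h1, ε.apply_eq_iff_eq] at hu
      congr 1
      push_cast at hu
      rw [eq_div_iff h2]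
      linear_combination -hu
  have hN : Nat.card (normalizer ((P : Subgroup G) : Set G)) = e * p := by
    have := L.card_nor
    rwa [S.cen, card_bot, mul_one] at this
  have h3 := H37.prime_three hΩ S.ins P (hN ▸ he.mul_right p)
  obtain ⟨m, hm⟩ := he
  have e2 := L.two
  have elt := L.e_lt
  have xe : x ^ e = 1 := S.ox ▸ pow_orderOf_eq_one x
  have hm' : ¬ e ∣ m := Nat.not_dvd_of_pos_of_lt (by omega) (by omega)
  obtain ⟨o, ho, hu⟩ := fx m hm'
  have zz : x ^ m * x ^ m = 1 := by rw [← pow_add, ← hm, xe]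
  have hC : Nat.card (centralizer ({x ^ m} : Set G)) ≤ 2 * e := S.nor ▸ card_le_of_le fun g hg =>
    S.ti g (x ^ m) (npow_mem_zpowers x m) (fun e0 => hm' (S.ox ▸ orderOf_dvd_of_pow_eq_one e0)) (by
      rw [mem_centralizer_singleton_iff.1 hg, mul_inv_cancel_right]; exact npow_mem_zpowers x m)
  have hO : ∀ o : Ω, Nat.card {u : Ω // u ≠ o} = p - 1 := fun o => by
    rw [← hΩ]; simp
  have key : ∀ a b c : Ω, a ≠ b → a ≠ c → b ≠ c → (p - 1) * Nat.card (K3 G a b c) ≤
      Nat.card {w : G // IsConj (x ^ m) w ∧ w • a = a ∧ w • b = c ∧ w • c = b} * (2 * e) :=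
    fun a b c ab ac bc => hO o ▸ (cnt h3 zz ho hu ab ac bc).trans (Nat.mul_le_mul_left _ hC)
  have sub : ∀ a b c : Ω, Function.Injective
      fun w : {w : G // IsConj (x ^ m) w ∧ w • a = a ∧ w • b = c ∧ w • c = b} =>
        (⟨w.1, w.2.2⟩ : {w : G // w • a = a ∧ w • b = c ∧ w • c = b}) :=
    fun a b c _ _ e => Subtype.ext (congrArg Subtype.val e :)
  obtain ⟨b, hb⟩ : ∃ b : Ω, b ≠ o := by
    have : Nontrivial Ω := Finite.one_lt_card_iff_nontrivial.1 (by omega)
    exact exists_ne o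
  have zb : x ^ m • x ^ m • b = b := by rw [← mul_smul, zz, one_smul]
  have ob : o ≠ x ^ m • b := fun e0 => hb (by rw [← zb, ← e0, ho])
  have bb : b ≠ x ^ m • b := fun e0 => hb (hu _ e0.symm)
  have hκ : 0 < Nat.card (K3 G o b (x ^ m • b)) := Nat.card_pos
  have t2 : p - 1 ≤ 2 * e := by
    have := (key _ _ _ hb.symm ob bb).trans (Nat.mul_le_mul_right _
      ((Nat.card_le_card_of_injective _ (sub _ _ _)).trans (card_le ho rfl zb)))
    rw [mul_comm] at this
    exact Nat.le_of_mul_le_mul_left this hκ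
  obtain ⟨t, ht⟩ := L.e_dvd
  have t1 : t ≠ 1 := by
    rintro rfl
    obtain ⟨o', ho', hu'⟩ := fx 1 (Nat.not_dvd_of_pos_of_lt one_pos (by omega))
    rw [pow_one] at ho' hu'
    obtain ⟨u, hu0⟩ : ∃ b : Ω, b ≠ o' := by
      have : Nontrivial Ω := Finite.one_lt_card_iff_nontrivial.1 (by omega)
      exact exists_ne o'
    have hi : ∀ i, x ^ i • o' = o' := fun i => pow_mem (mem_stabilizer_iff.2 ho') i
    have inj : Function.Bijective fun i : Fin e => (⟨x ^ i.1 • u, fun e0 => hu0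
        (MulAction.injective _ (e0.trans (hi _).symm))⟩ : {u : Ω // u ≠ o'}) := by
      refine (Nat.bijective_iff_injective_and_card _).2 ⟨fun i j hij => ?_, by rw [hO]; simp; omega⟩
      have e0 : x ^ i.1 • u = x ^ j.1 • u := congrArg Subtype.val hij
      have aux : ∀ i j : ℕ, i < j → j < e → x ^ i • u ≠ x ^ j • u := fun i j h1 h2 e0 => by
        obtain ⟨o2, -, h4⟩ := fx (j - i) (Nat.not_dvd_of_pos_of_lt (by omega) (by omega))
        refine hu0 ((h4 u (MulAction.injective (x ^ i) ?_)).trans (h4 _ (hi _)).symm)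
        simp only
        rw [← mul_smul, ← pow_add, show i + (j - i) = j by omega, e0]
      rcases lt_trichotomy i.1 j.1 with c | c | c
      exacts [absurd e0 (aux _ _ c j.2), Fin.ext c, absurd e0.symm (aux _ _ c i.2)]
    have cyc : (toPerm x : Equiv.Perm Ω).IsCycle := ⟨u, fun e0 => hu0 (hu' u e0), fun v hv => by
      obtain ⟨i, hi⟩ := inj.2 ⟨v, fun e0 => hv (e0 ▸ ho')⟩
      exact ⟨i.1, by
        rw [zpow_natCast, ← toPermHom_apply, ← map_pow]; exact congrArg Subtype.val hi⟩⟩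
    have sg := cyc.sign
    rw [H87.sign_toPerm_eq_one (fun hc => S.ins (Group.isSolvable_of_comm hc.is_comm.comm)),
      show (toPerm x : Equiv.Perm Ω).support = Finset.univ.erase o' from Finset.ext fun v => by
        simp only [Equiv.Perm.mem_support, Finset.mem_erase, Finset.mem_univ, and_true]
        exact ⟨fun hv e0 => hv (e0 ▸ ho'), fun hv e0 => hv (hu' v e0)⟩,
      Finset.card_erase_of_mem (Finset.mem_univ _), Finset.card_univ, ← Nat.card_eq_fintype_card,
      hΩ, ht, mul_one, hm, ← two_mul, pow_mul] at sg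
    simp at sg
  have t0 : p - 1 = 2 * e := by
    have : t ≤ 2 := Nat.le_of_mul_le_mul_left (show e * t ≤ e * 2 by omega) (by omega)
    interval_cases t <;> omega
  obtain ⟨B, F⟩ := four h3 fun a b c ab ac bc g g1 g2 g3 => by
    have k1 := key a b c ab ac bc
    rw [t0, mul_comm] at k1
    obtain ⟨w, hw⟩ := ((Nat.bijective_iff_injective_and_card _).2 ⟨sub a b c, le_antisymm
      (Nat.card_le_card_of_injective _ (sub _ _ _)) ((card_le g1 g2 g3).trans
        (Nat.le_of_mul_le_mul_right k1 (by omega)))⟩).2 ⟨g, g1, g2, g3⟩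
    obtain ⟨q, hq⟩ := isConj_iff.1 w.2.1
    rw [show w.1 = g from congrArg Subtype.val hw] at hq
    have k2 : ∀ u, g • u = u → q⁻¹ • u = o := fun u hu' => hu _ (by
      rw [← mul_smul, eq_inv_smul_iff, ← mul_smul, ← mul_assoc, hq, hu'])
    exact ⟨by rw [← hq, conj_mul, zz]; simp, fun u hu' =>
      MulAction.injective q⁻¹ ((k2 u hu').trans (k2 a g1).symm)⟩
  obtain ⟨r, hr⟩ := card_dvd hb.symm ob bb fun d d1 d2 d3 k hk kd =>
    F _ _ _ d k hb.symm ob bb d1 d2 d3 hk kd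
  have odd : ¬ 2 ∣ Nat.card (K3 G o b (x ^ m • b)) := fun hd => by
    obtain ⟨k, hk⟩ := exists_prime_orderOf_dvd_card' 2 hd
    have := B o b k hb.symm (mem_K3.1 k.2).1 (mem_K3.1 k.2).2.1
    rw [orderOf_coe, hk] at this
    exact absurd this (by decide)
  have i1 := h3.index_of_fixingSubgroup_mul (Set.ncard_eq_three.2 ⟨_, _, _, hb.symm, ob, bb, rfl⟩)
  have i2 := (K3 G o b (x ^ m • b)).index_mul_card
  have i3 := (normalizer ((P : Subgroup G) : Set G)).index_mul_card
  have i4 := card_sylow_modEq_one p G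
  rw [P.card_eq_index_normalizer] at i4
  rw [hN] at i3
  rw [hΩ] at i1 hr
  generalize Nat.card (K3 G o b (x ^ m • b)) = κ at *
  obtain ⟨s, rfl⟩ : ∃ s, p = s + 3 := ⟨p - 3, by omega⟩
  rw [Nat.add_sub_cancel, Nat.factorial_succ, Nat.factorial_succ, Nat.factorial_succ, ← mul_assoc,
    ← mul_assoc] at i1
  rw [Nat.eq_of_mul_eq_mul_right (Nat.factorial_pos s) i1, ← i3, show s + 1 + 1 = 2 * e by omega] at i2
  have i5 : (normalizer ((P : Subgroup G) : Set G)).index = 2 * (s + 1) * κ :=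
    Nat.eq_of_mul_eq_mul_right (show 0 < e * (s + 3) by positivity) (by
      rw [← i2, show 2 * e + 1 = s + 3 by omega]; ring)
  have i6 : s + 3 ∣ 4 * κ + 1 := by
    have k1 : (2 * (s + 1) * κ + 4 * κ) ≡ 1 + 4 * κ [MOD s + 3] := (i5 ▸ i4).add_right _
    rw [add_comm (4 * κ), ← Nat.modEq_zero_iff_dvd]
    exact k1.symm.trans (Nat.modEq_zero_iff_dvd.2 ⟨2 * κ, by ring⟩)
  have i7 : κ ∣ s := (Nat.dvd_add_left (dvd_mul_left κ 3)).1 ⟨r, by
    rw [mul_comm κ r, ← hr]; omega⟩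
  obtain ⟨j, hj⟩ := i7
  have i8 : 2 ≤ j := by
    rcases j with _ | _ | j
    · omega
    · omega
    · omega
  have i9 : 2 * κ ≤ s := by rw [hj, mul_comm]; exact Nat.mul_le_mul_left _ i8
  obtain ⟨l, hl⟩ := i6
  have : l = 1 := by
    rcases l with _ | _ | l
    · omega
    · rfl
    · nlinarith
  subst this
  have i10 : κ ∣ 2 := (Nat.dvd_add_right (show κ ∣ s from ⟨j, hj⟩)).1 ⟨4, by omega⟩
  have : κ = 1 := ((Nat.dvd_prime Nat.prime_two).1 i10).resolve_right fun e0 => odd (e0 ▸ dvd_rfl)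
  subst this
  obtain rfl : s = 2 := by omega
  obtain rfl : e = 2 := by omega
  exact ⟨rfl, by rw [← i3, i5]⟩

end H55.ItEv
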