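import Cfsg.Agent.H12.ABSpec
import Cfsg.Agent.H55.TriLang
import Cfsg.Agent.H67.InvJobs

/-! Tower AB (S5304): the triality group as a group of fixed points. -/

set_option autoImplicit false

namespace H55.ABD4

open Cfsg Cfsg.Lie H63 H64 H65 H46 H68 H67.Sub H55.Tri H12.AB

section gen

variable {D : ChevalleyDatum} [RS D] [Tab D] [Comm D] {ρ π : ℕ → ℕ} {η : ℕ → ℤ}
  (c : GraphOK D ρ π η) {k : Type} [Field k]

omit [RS D] [Tab D] [Comm D] in
theorem map_inj {K : Type} [Field K] (ι : K →+* k) :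
    Function.Injective (Matrix.GeneralLinearGroup.map ι : GL D.Idx K →* GL D.Idx k) :=
  fun _ _ h => Units.ext (Matrix.ext fun i j =>
    ι.injective (congrArg (fun g : GL D.Idx k => (g : Matrix D.Idx D.Idx k) i j) h))

theorem gF_inj (φ : k →+* k) : Function.Injective (gF c φ) := fun a b h => by
  have := congrArg Subtype.val h
  rw [gF_val, gF_val] at this
  exact Subtype.ext (map_inj φ (mul_left_cancel (mul_right_cancel this)))

theorem gF_nn (φ : k →+* k) (r : Rt D) (t : k) :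
    gF c φ (nn D (xG D k) r t) = nn D (xG D k) (ρ r) (η r * φ t) := by
  have h : (η r : k) * η r = 1 := by rw [← Int.cast_mul, c.sq r r.2, Int.cast_one]
  rw [nn_eq, nn_eq, map_mul, map_mul, gF_x c φ r.2, gF_x c φ (RS.neg_lt r), (c.neg r r.2).1,
    (c.neg r r.2).2, map_neg, map_inv₀, mul_inv, ← eq_inv_of_mul_eq_one_left h, mul_neg]

theorem gF_H (φ : k →+* k) : ∀ h ∈ HK D k, gF c φ h ∈ HK D k := by
  have : HK D k ≤ (HK D k).comap (gF c φ) := by
    refine (Subgroup.closure_le _).2 ?_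
    rintro _ ⟨r, t, ht, rfl⟩
    have h : (η r : k) * η r = 1 := by rw [← Int.cast_mul, c.sq r r.2, Int.cast_one]
    have h0 : (η r : k) ≠ 0 := left_ne_zero_of_mul_eq_one h
    have hφ : φ t ≠ 0 := (map_ne_zero φ).2 ht
    change gF c φ _ ∈ HK D k
    rw [hh_eq, map_mul, gF_nn, gF_nn, map_neg, map_one, mul_neg, mul_one]
    exact (H67.stBG (D := D) (k := k)).toStN.toSt.nn_mul_nn_mem ⟨ρ r, c.lt r r.2⟩
      (mul_ne_zero h0 hφ) (neg_ne_zero.2 h0)
  exact fun h hh => this hh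

theorem gF_N (φ : k →+* k) : ∀ n ∈ NK D k, gF c φ n ∈ NK D k := by
  have : NK D k ≤ (NK D k).comap (gF c φ) := by
    refine sup_le (fun h hh => ?_) ((Subgroup.closure_le _).2 ?_)
    · exact (H67.stBG (D := D) (k := k)).rgd.H_le_N (gF_H c φ h hh)
    · rintro _ ⟨i, rfl⟩
      change gF c φ _ ∈ NK D k
      rw [StB.rgd_n]
      have := gF_nn c φ ⟨D.simple i, RS.simple_lt i⟩ 1
      rw [map_one, mul_one] at this
      change gF c φ (nn D (xG D k) (D.simple i) 1) = _ at this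
      rw [this]
      refine StB.nn_mem_N _ ⟨ρ (D.simple i), c.lt _ (RS.simple_lt i)⟩ ?_
      change ((η (D.simple i) : ℤ) : k) ≠ 0
      rw [c.gsim i i.2, Int.cast_one]
      exact one_ne_zero
  exact fun n hn => this hn

end gen

theorem job : JobGl3D4 := by
  intro K _ _ q p _ _ hq hK
  obtain ⟨σ, hσ, hfix, -, -⟩ := exists_frobAut_tw K hq (by norm_num : (3 : ℕ) ≠ 0) hK
  let k := AlgebraicClosure K
  let ι : K →+* k := algebraMap K k
  let φ : k →+* k := σ
  have hφ : ∀ t, φ t = t ^ q := hσ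
  have e := map_eq_Fix hq hK ι φ hφ hfix
  have hm : ∀ y : twistedD4 K q, Matrix.GeneralLinearGroup.map ι y.1 ∈
      ((sm φ hφ).twg (nontriv φ hφ)).Fix := fun y => e ▸ Subgroup.mem_map_of_mem _ y.2
  let f : twistedD4 K q →* GK chevD4 k :=
    ((Matrix.GeneralLinearGroup.map ι).comp (twistedD4 K q).subtype).codRestrict _ fun y =>
      mat_Gp (D := chevD4) (K := k) ▸ (hm y).1
  refine ⟨gF graphD4 φ, f, gF_inj _ _, gF_H _ _, gF_N _ _, fun a b h => ?_, fun y => ?_,
    fun x _ _ hx => ?_⟩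
  · exact Subtype.ext (map_inj ι (congrArg Subtype.val h))
  · exact Subtype.ext (hm y).2
  · have : x.1 ∈ ((sm φ hφ).twg (nontriv φ hφ)).Fix :=
      ⟨(mat_Gp (D := chevD4) (K := k)).symm ▸ x.2, congrArg Subtype.val hx⟩
    rw [← e] at this
    obtain ⟨y, hy, h⟩ := this
    exact ⟨⟨y, hy⟩, Subtype.ext h⟩

end H55.ABD4
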