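import Cfsg.Agent.H60.WrPhi
import Cfsg.Agent.H19.AschUAux
import Cfsg.Agent.H59.Axis

/-! C7 tower: facts on one unitary factor used by the jobs UG and UQ. -/

set_option autoImplicit false

namespace H55.C7
open Cfsg Cfsg.Geo Matrix H19 H60.Wr Module
open scoped MatrixGroups

universe u

variable {F : Type u} [Field F] {k t : ℕ} {B : Frm (Fin k) F} {Γ : Subgroup (GL (Fin k) F)}
  {a : F} {x y v w y' : Fin k → F} {X : Mk k F}

theorem ne_id (ha : B.σ a ≠ a) : (B.σ : F →+* F) ≠ RingHom.id F := fun e =>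
  ha (congrArg (fun f : F →+* F => f a) e)

theorem ex_norm [Finite F] (ha : B.σ a ≠ a) {c : F} (hc : B.σ c = c) : ∃ l, l * B.σ l = c := by
  obtain ⟨l, hl⟩ := H59.exists_norm_eq' (ne_id ha) B.invol hc
  exact ⟨l, (mul_comm _ _).trans hl⟩

theorem ex_tz (ha : B.σ a ≠ a) : ∃ d : F, d ≠ 0 ∧ B.σ d = -d :=
  ⟨B.σ a - a, sub_ne_zero.2 ha, by rw [map_sub, B.invol, neg_sub]⟩

theorem fsym (hε : B.ε = 1) (u v : Fin k → F) : B.f v u = B.σ (B.f u v) := by
  rw [B.symm, hε, one_mul]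

theorem f_one (hε : B.ε = 1) (h : B.f x y = 1) : B.f y x = 1 := by rw [fsym hε, h, map_one]

theorem ex_nonIso [Finite F] (ha : B.σ a ≠ a) (hε : B.ε = 1) (hk : 3 ≤ k) (hw : w ≠ 0) :
    ∃ v, B.f v w = 0 ∧ B.f v v ≠ 0 := by
  have h := B.isHerm hε (τ := (B.σ : F →+* F)) (fun _ => rfl) (ne_id ha)
  obtain ⟨p, h1, h2⟩ := h.exists_self_ne_zero_perp_of_lt (W := F ∙ w) (by
    rw [finrank_span_singleton hw]; simp; omega)
  exact ⟨p, H59.mem_perp_singleton.1 h1, h2⟩

theorem smul_iso (hw : w ∈ IsoV B) {l : F} (hl : l ≠ 0) : l • w ∈ IsoV B :=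
  ⟨smul_ne_zero hl hw.1, by rw [B.smul_left, B.smul_right, hw.2, mul_zero, mul_zero]⟩

theorem rf_smul_smul (l : F) (w : Fin k → F) :
    rf B (l • w) (l • w) = (l * B.σ l) • rf B w w := by
  rw [rf_smul_right, rf, ro_smul_left, smul_smul, mul_comm]

theorem rf_sq (hw : B.f w w = 0) : rf B w w * rf B w w = 0 := by rw [rf_mul_rf, hw, zero_smul]

theorem mem_span_of_perp (h : ∀ v, B.f v w = 0 → B.f x v = 0) : x ∈ F ∙ w := by
  by_contra hx
  obtain ⟨v, h1, h2⟩ := exists_f_of_notMem (B := B) hx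
  exact one_ne_zero (h1.symm.trans
    (h v (B.eq_zero_comm.1 (h2 w (Submodule.mem_span_singleton_self w)))))

/-- From two relations with `1` and `a`. -/
theorem two_rel (ha : B.σ a ≠ a) {p q : F} (h1 : p = q) (h2 : B.σ a * p = a * q) : p = 0 := by
  rw [← h1] at h2
  exact (mul_eq_zero.1 (by linear_combination h2 : (B.σ a - a) * p = 0)).resolve_left
    (sub_ne_zero.2 ha)

theorem ex_z (ha : B.σ a ≠ a) (hε : B.ε = 1) (hy : y ∈ IsoV B) (h1 : B.f y y' = 1)
    (hv : B.f v y = 0) : ∃ m : F, y' - v + m • y ∈ IsoV B ∧ B.f y (y' - v + m • y) = 1 := by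
  obtain ⟨m, hm⟩ := H59.exists_trace_eq (ne_id ha) B.invol (c := -B.f (y' - v) (y' - v)) (by
    change B.σ _ = _
    rw [map_neg, ← fsym hε])
  have e0 : B.f y (y' - v) = 1 := by rw [B.sub_right, h1, B.eq_zero_comm.1 hv, sub_zero]
  have e : B.f y (y' - v + m • y) = 1 := by
    rw [B.add_right, e0, B.smul_right, hy.2, mul_zero, add_zero]
  refine ⟨m, ⟨fun h0 => by simp [h0] at e, ?_⟩, e⟩
  rw [B.add_left, B.smul_left, e, B.add_right, B.smul_right, f_one hε e0]
  have : m + B.σ m = _ := hm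
  linear_combination this

/-- A matrix commuting with all `N_y` is a scalar. -/
theorem sc_of_comm (G : GF B Γ) (h : ∀ y ∈ IsoV B, X * rf B y y = rf B y y * X) : Sc X := by
  obtain ⟨y0, h0⟩ := G.ex
  have key : ∀ y ∈ IsoV B, ∃ c : F, X *ᵥ y = c • y ∧ ∀ u, B.f (X *ᵥ u) y = c * B.f u y :=
    fun y hy => by
      have e : ∀ u, B.f u y • X *ᵥ y = B.f (X *ᵥ u) y • y := fun u => by
        have := congrArg (· *ᵥ u) (h y hy)
        simpa only [← mulVec_mulVec, rf_mulVec, mulVec_smul] using this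
      obtain ⟨u, hu⟩ := exists_f_one (B := B) hy.1
      have e1 := e u
      rw [hu, one_smul] at e1
      refine ⟨_, e1, fun z => smul_left_injective F hy.1 ?_⟩
      beta_reduce
      rw [← e z, e1, smul_smul, mul_comm]
  obtain ⟨c, -, hc⟩ := key y0 h0
  have : LinearMap.eqLocus (toLin' X) (c • LinearMap.id) = ⊤ := by
    rw [eq_top_iff, ← G.sp y0 h0.1, Submodule.span_le]
    rintro y ⟨h1, h2⟩
    obtain ⟨d, hd, -⟩ := key y h1
    have h3 := hc y
    rw [hd, B.smul_left] at h3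
    change toLin' X y = c • y
    rw [toLin'_apply, hd, mul_right_cancel₀ (fun e => h2 (B.eq_zero_comm.1 e)) h3]
  exact ⟨c, ext_mulVec fun v => by
    have h1 : toLin' X v = c • v := this.ge Submodule.mem_top
    simpa [smul_mulVec] using h1⟩

/-- A matrix whose form vanishes on the isotropic vectors is a scalar. -/
theorem sc_of_iso (ha : B.σ a ≠ a) (hε : B.ε = 1) (G : GF B Γ)
    (h : ∀ y ∈ IsoV B, B.f (X *ᵥ y) y = 0) : Sc X := by
  obtain ⟨d, d0, hd⟩ := ex_tz ha
  have pair : ∀ y ∈ IsoV B, ∀ z ∈ IsoV B, B.f y z = 1 → B.f (X *ᵥ y) z = B.f (X *ᵥ z) y :=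
    fun y hy z hz e => by
      have e1 : B.f y (y + d • z) = -d := by
        rw [B.add_right, B.smul_right, hy.2, e, hd]; ring
      have := h (y + d • z) ⟨fun h0 => d0 (by simpa [h0] using e1), by
        rw [B.add_left, e1, B.smul_left, B.add_right, B.smul_right, hz.2, f_one hε e]; ring⟩
      simp only [mulVec_add, mulVec_smul, B.add_left, B.add_right, B.smul_left, B.smul_right,
        h y hy, h z hz, hd] at this
      exact mul_left_cancel₀ d0 (by linear_combination -this)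
  refine sc_of_comm G fun y hy => ?_
  obtain ⟨y', hy', e⟩ := G.hyp y hy
  have k1 : ∀ v, B.f v y = 0 → B.f (X *ᵥ y) v = B.f (X *ᵥ v) y := fun v hv => by
    obtain ⟨m, h1, h2⟩ := ex_z ha hε hy e hv
    have := pair y hy _ h1 h2
    simp only [mulVec_add, mulVec_sub, mulVec_smul, B.add_left, B.add_right, B.sub_left,
      B.sub_right, B.smul_left, B.smul_right, h y hy, pair y hy y' hy' e] at this
    linear_combination -this
  have k2 : ∀ v, B.f v y = 0 → B.f (X *ᵥ y) v = 0 := fun v hv =>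
    two_rel ha (k1 v hv) (by
      have := k1 (a • v) (by rw [B.smul_left, hv, mul_zero])
      rwa [B.smul_right, mulVec_smul, B.smul_left] at this)
  obtain ⟨c, hc⟩ := Submodule.mem_span_singleton.1 (mem_span_of_perp k2)
  have k3 : B.f (X *ᵥ y') y = c := by
    rw [← pair y hy y' hy' e, ← hc, B.smul_left, e, mul_one]
  refine ext_mulVec fun u => ?_
  have k4 : B.f (u - B.f u y • y') y = 0 := by
    rw [B.sub_left, B.smul_left, f_one hε e, mul_one, sub_self]
  have k5 := (k1 _ k4).symm.trans (k2 _ k4)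
  rw [mulVec_sub, mulVec_smul, B.sub_left, B.smul_left, k3, sub_eq_zero] at k5
  rw [← mulVec_mulVec, ← mulVec_mulVec, rf_mulVec, rf_mulVec, mulVec_smul, ← hc, smul_smul, k5]

theorem mem_of_smul {𝔅 : Subalgebra F (Mk k F)} {c : F} (hc : c ≠ 0) (h : c • X ∈ 𝔅) : X ∈ 𝔅 := by
  simpa [smul_smul, hc] using 𝔅.smul_mem h c⁻¹

theorem tz_of_in (hε : B.ε = 1) {M : Subgroup (GG k t F)} (hM : M ≤ (B.pow t).Iso) {i : Fin t}
    (hw : w ∈ IsoV B) {r : F} (h : In M (1 + em i (r • rf B w w))) : r + B.σ r = 0 := by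
  have h1 := (h.mono hM).skew (by
    rw [← map_mul, smul_mul_smul_comm, rf_sq hw.2, smul_zero, map_zero])
  rw [adj_em, B.adj_smul, adj_rf, hε, one_smul, ← map_neg, em_inj, ← add_eq_zero_iff_eq_neg,
    ← add_smul, add_comm] at h1
  exact (smul_eq_zero.1 h1).resolve_right (rf_ne_zero hw.1 hw.1)

end H55.C7
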