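import Cfsg.Agent.H55.C7U0

/-! C7 tower, job UG: the generic data for unitary factors. -/

set_option autoImplicit false

namespace H55.C7
open Cfsg Cfsg.Geo Matrix H19 H60.Wr Module
open scoped MatrixGroups

universe u

variable {F : Type u} [Field F] {k t : ℕ} {B : Frm (Fin k) F} {M : Subgroup (GG k t F)}
  {a : F} {w : Fin k → F}

theorem UC_k3 (H : UC B M) : 3 ≤ k := by rcases H.big with h | h <;> omega

theorem UC_tv (H : UC B M) {x : Fin k → F} (hx : B.f x x = 0) {d : F} (hd : B.σ d = -d) :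
    In (Gam M) (1 + d • rf B x x) := H.tv x hx d (by rw [hd, add_neg_cancel])

theorem iso_of_le [Finite F] (H : UC B M) {g : GG k t F} (hg : g ∈ M) {i j : Fin t}
    (hw : w ∈ IsoV B) {w' : Fin k → F} (h0 : w' ≠ 0)
    (h : LS j (F ∙ w') ≤ (LS i (F ∙ w)).map (toLin' (g : EE k t F))) : w' ∈ IsoV B := by
  obtain ⟨a, ha⟩ := H.sig
  obtain ⟨z, -, hz⟩ := ex_nonIso ha H.eps (UC_k3 H) hw.1
  obtain ⟨u, hu, e⟩ := h (x := pv (Function.update (fun _ => z) j w')) (by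
    rw [pv_update]; exact (ten k F j).t_mem_LS _ (Submodule.mem_span_singleton_self w'))
  have h1 : (B.pow t).f u u = 0 := f_LS (fun x hx y hy => by
    obtain ⟨r, rfl⟩ := Submodule.mem_span_singleton.1 hx
    obtain ⟨s, rfl⟩ := Submodule.mem_span_singleton.1 hy
    rw [B.smul_left, B.smul_right, hw.2, mul_zero, mul_zero]) hu hu
  rw [← (B.pow t).mem_Iso.1 (H.le hg), ← toLin'_apply, e, f_pv, Finset.prod_eq_zero_iff] at h1
  obtain ⟨l, -, hl⟩ := h1
  by_cases e2 : l = j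
  · subst e2; exact ⟨h0, by simpa using hl⟩
  · exact absurd (by simpa [Function.update_of_ne e2] using hl) hz

theorem N_mem (H : UC B M) {𝔅 : Subalgebra F (Mk k F)} {v z : Fin k → F}
    (h : StIn (Gam M) v 𝔅) (hz : B.f z z = 0) (hv : B.f v z = 0) : rf B z z ∈ 𝔅 := by
  obtain ⟨a, ha⟩ := H.sig
  obtain ⟨d, d0, hd⟩ := ex_tz ha
  obtain ⟨s, hs, e⟩ := UC_tv H hz hd
  have := h s hs ⟨1, by rw [e, add_mulVec, smul_mulVec, rf_mulVec, hv]; simp⟩
  rw [e] at this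
  exact mem_of_smul d0 (by simpa using 𝔅.sub_mem this 𝔅.one_mem)

theorem zs_tau [Finite F] (H : UC B M) {τ : F} (h1 : B.σ τ = τ) (h2 : τ ≠ 0) (h3 : τ ≠ 1)
    (hw : w ∈ IsoV B) {𝔅 : Subalgebra F (Mk k F)} (h : StIn (Gam M) w 𝔅) (X : Mk k F)
    (hX : ∀ b ∈ 𝔅, X * b = b * X) : Sc X := by
  obtain ⟨a, ha⟩ := H.sig
  have hN := N_mem H h hw.2 hw.2
  have k1 : ∀ v, B.f v w = 0 → rf B w v - rf B v w ∈ 𝔅 := fun v hv => by
    obtain ⟨c, s, hs, e⟩ := H.gf.eich w v hw.2 hv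
    have := h s hs ⟨1, by
      simp [e, add_mulVec, sub_mulVec, smul_mulVec, rf_mulVec, hw.2, B.eq_zero_comm.1 hv]⟩
    rw [e, H.eps, one_smul] at this
    convert 𝔅.add_mem (𝔅.sub_mem this 𝔅.one_mem) (𝔅.smul_mem hN c) using 1
    abel
  have k2 : ∀ v, B.f v w = 0 → rf B w v ∈ 𝔅 := fun v hv => by
    have e := k1 (a • v) (by rw [B.smul_left, hv, mul_zero])
    rw [rf_smul_right, rf, rf, ro_smul_left] at e
    refine mem_of_smul (sub_ne_zero.2 ha) ?_
    convert 𝔅.sub_mem e (𝔅.smul_mem (k1 v hv) a) using 1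
    module
  have k3 : ∀ v, B.f v w = 0 → rf B v w ∈ 𝔅 := fun v hv => by
    simpa using 𝔅.sub_mem (k2 v hv) (k1 v hv)
  obtain ⟨u, hu⟩ := exists_f_one (B := B) hw.1
  have k4 : ∀ v, B.f v w = 0 → X *ᵥ v = B.f (X *ᵥ u) w • v := fun v hv => by
    have := congrArg (· *ᵥ u) (hX _ (k3 v hv))
    simpa only [← mulVec_mulVec, rf_mulVec, hu, one_smul] using this
  generalize B.f (X *ᵥ u) w = α at k4
  obtain ⟨β, hβ⟩ := Submodule.mem_span_singleton.1 (mem_span_of_perp (B := B) (w := w)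
    (x := X *ᵥ u - α • u) fun v hv => by
      have := congrArg (· *ᵥ u) (hX _ (k2 v hv))
      simp only [← mulVec_mulVec, rf_mulVec, mulVec_smul, k4 w hw.2, smul_smul] at this
      rw [B.sub_left, B.smul_left, ← smul_left_injective F hw.1 this, mul_comm, sub_self])
  have k5 : X = α • 1 + β • rf B w w := ext_mulVec fun z => by
    have := k4 (z - B.f z w • u) (by rw [B.sub_left, B.smul_left, hu, mul_one, sub_self])
    rw [mulVec_sub, mulVec_smul, eq_add_of_sub_eq hβ.symm] at this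
    rw [add_mulVec, smul_mulVec, smul_mulVec, one_mulVec, rf_mulVec]
    linear_combination (norm := module) this
  obtain ⟨l, hl⟩ := ex_norm ha h1
  obtain ⟨s, hs, e⟩ := H.gf.tr w hw _ (smul_iso hw (l := l) (by rintro rfl; simp [← hl] at h2))
  have k6 : cj s X = X := (cj_eq_iff _ _ _).2 (hX _ (h s hs ⟨l, e⟩)).symm
  rw [k5, map_add, map_smul, map_one, map_smul, cj_rf (H.gf.iso hs), e, rf_smul_smul, hl,
    add_right_inj, smul_smul, ← sub_eq_zero, ← sub_smul] at k6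
  have k7 : β = 0 := by
    have := (smul_eq_zero.1 k6).resolve_right (rf_ne_zero hw.1 hw.1)
    exact (mul_eq_zero.1 (by linear_combination this : β * (τ - 1) = 0)).resolve_right
      (sub_ne_zero.2 h3)
  exact ⟨α, by rw [k5, k7, zero_smul, add_zero]⟩

theorem ql (H : UC B M) (hQ : QQ M (RN B)) (i : Fin t) (hw : w ∈ IsoV B) :
    QL M i w (pp B w) := by
  obtain ⟨a, ha⟩ := H.sig
  obtain ⟨φ, hφ⟩ := exists_dot_one hw.1
  refine QL.of_inQ fun m h => h.inA_of_sc H.le H.gf hQ hw hφ fun v hv => ?_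
  have key : ∀ v, B.f v w = 0 → Sc ((B.pow t).adj (phi i φ m v) - phi i φ m v) := fun v hv => by
    have := h.comm_eich H.le H.gf hw.2 hφ hv
    rw [H.eps, one_smul] at this
    exact hQ i _ ⟨w, hw, rfl⟩ _ (((phi_inC _ _ _ _).adj B).sub (phi_inC _ _ _ _)) this
  have e := key (a • v) (by rw [B.smul_left, hv, mul_zero])
  rw [phi_smul, Frm.adj_smul, pow_sig] at e
  refine Sc.of_smul (sub_ne_zero.2 ha) ?_
  convert e.sub ((key v hv).smul (B.σ a)) using 1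
  module

theorem jobUG : JobUG.{u} := by
  intro F _ _ k t B M H hQ
  obtain ⟨a, ha⟩ := H.sig
  obtain ⟨d, d0, hd⟩ := ex_tz ha
  obtain ⟨w0, h0⟩ := H.gf.ex
  have eν : ro w0 (d • ph B w0) = d • rf B w0 w0 := ro_smul_right _ _ _
  have φ0 : d • ph B w0 ≠ 0 := smul_ne_zero d0 (ph_ne_zero h0.1)
  have φw : (d • ph B w0) ⬝ᵥ w0 = 0 := by rw [smul_dotProduct, ph_dot, h0.2, smul_zero]
  have sq : ro w0 (d • ph B w0) * ro w0 (d • ph B w0) = 0 := by rw [ro_mul_ro, φw, zero_smul]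
  have hm : In (Gam M) (1 + ro w0 (d • ph B w0)) := eν ▸ UC_tv H h0.2 hd
  have htz : ∀ {τ r : F}, B.σ τ = τ → B.σ r = -r → B.σ (τ * r) = -(τ * r) := fun h1 h2 => by
    rw [map_mul, h1, h2, mul_neg]
  refine ⟨IsoV B, ro w0 (d • ph B w0), pp B, ⟨fun w hw => hw.1, fun w hw w' hw' => ?_,
    fun g hg i j w hw w' h1 h2 => iso_of_le H hg hw h1 h2,
    fun g hg i j w' h1 h2 => iso_of_le H hg h0 h1 (rg_ro φ0 w0 ▸ h2),
    fun w hw 𝔅 h1 h2 X hX => ?_, sq, ro_ne_zero h0.1 φ0, hm, ?_, fun 𝔅 h => ⟨w0, h0, _, φ0, ?_⟩,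
    fun X hX => sc_of_comm H.gf fun y hy => ?_, fun w hw => hw.2,
    fun i w _ m hm h y => sub_mem_LS_pp (H.le hm) h y, fun w hw ψ hψ => ?_⟩,
    fun i w hw => ql H hQ i hw, fun h2 => hr_ro h2 φw, fun _ => ⟨⟨_, _, rfl⟩,
      fun i w φ h => ⟨h.1, (root_iso H.le h).1⟩, fun h3 => ?_, ?_⟩⟩
  · obtain ⟨h, hh, e⟩ := H.gf.tr w hw w' hw'
    exact ⟨h, hh, 1, by rw [e, one_smul]⟩
  · rcases H.big with h4 | ⟨-, τ, t1, t2, t3⟩
    · refine sc_of_comm H.gf fun y hy => hX _ ?_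
      obtain ⟨z, hz, e1, e2⟩ := (H.gf2 h4).two w hw y hy
      exact N_mem H (h2 z hz _ (ph_ne_zero hz.1) (N_mem H h1 hz.2 (B.eq_zero_comm.1 e1))) hy.2 e2
    · exact zs_tau H t1 t2 t3 hw h1 X hX
  · obtain ⟨v, h1, h2⟩ := ex_nonIso ha H.eps (UC_k3 H) h0.1
    obtain ⟨ψ, h3, h4⟩ := exists_dot_of_notMem (J := F ∙ w0) (x := v) fun h => by
      obtain ⟨r, rfl⟩ := Submodule.mem_span_singleton.1 h
      exact h2 (by rw [B.smul_left, B.smul_right, h0.2, mul_zero, mul_zero])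
    refine ⟨v, ψ, h3, by rw [eν, smul_mulVec, rf_mulVec, h1, zero_smul, smul_zero], ?_⟩
    rw [vecMul_vecMulVec, h4 w0 (Submodule.mem_span_singleton_self w0), zero_smul]
  · obtain ⟨s, hs, e⟩ := hm
    have := h s hs (by rw [e, add_mul, one_mul, sq, add_zero])
    rw [e] at this
    simpa using 𝔅.sub_mem this 𝔅.one_mem
  · obtain ⟨s, hs, e⟩ := H.gf.tr w0 h0 y hy
    have := hX s hs
    rw [eν, map_smul, cj_rf (H.gf.iso hs), e, mul_smul_comm, smul_mul_assoc] at this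
    exact smul_right_injective _ d0 this
  · obtain ⟨u, rfl⟩ := exists_ph B ψ
    rw [ph_dot] at hψ
    obtain ⟨c, s, hs, e⟩ := H.gf.eich w u hw.2 (B.eq_zero_comm.1 hψ)
    exact ⟨s, hs, fun v hv => by
      simp [e, add_mulVec, sub_mulVec, smul_mulVec, rf_mulVec, mem_pp.1 hv, ph_dot]⟩
  · rcases H.big with h4 | ⟨-, τ, t1, t2, t3⟩
    · omega
    · refine Or.inl ⟨w0, _, τ, h0.1, φ0, φw, t2, t3, hm, ?_⟩
      rw [eν, smul_smul]
      exact UC_tv H h0.2 (htz t1 hd)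
  · by_cases hτ : ∃ τ, B.σ τ = τ ∧ τ ≠ 0 ∧ τ ≠ 1
    · obtain ⟨τ, t1, t2, t3⟩ := hτ
      refine Or.inl ⟨τ, t2, t3, fun i w φ h => ?_⟩
      obtain ⟨h1, r, -, rfl⟩ := root_iso H.le h
      have h2 := h.2.2.2
      rw [ro_smul_right] at h2
      rw [smul_smul, ro_smul_right]
      exact UC_tv H h1 (htz t1 (eq_neg_of_add_eq_zero_right (tz_of_in H.eps H.le ⟨h.1, h1⟩ h2)))
    · have h4 : 4 ≤ k := H.big.resolve_right fun h => hτ h.2
      refine Or.inr (Or.inr ⟨B, H.le, h4, fun c hc => ?_,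
        fun v _ hv => ⟨d, d0, UC_tv H hv hd⟩, fun w h1 h2 => ?_⟩)
      · by_contra! h; exact hτ ⟨c, hc, h⟩
      · obtain ⟨v, hv, e1, e2⟩ : {y | y ∈ IsoV B ∧ B.f y w = 0 ∧ y ∉ F ∙ w}.Nonempty := by
          by_contra h
          have := (H.gf2 h4).pp w ⟨h1, h2⟩ (mem_pp.2 h2)
          rw [Set.not_nonempty_iff_eq_empty.1 h] at this
          exact h1 (by simpa using this)
        have key : ∀ l : F, l ≠ 0 → B.f (l • v) (l • v) = 0 ∧ B.f (l • v) w = 0 ∧ l • v ∉ F ∙ w :=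
          fun l hl => ⟨(smul_iso hv hl).2, by rw [B.smul_left, e1, mul_zero],
            fun h => e2 ((Submodule.smul_mem_iff _ hl).1 h)⟩
        refine ⟨v, a • v, ?_⟩
        rintro z (rfl | rfl | rfl)
        · exact ⟨hv.2, e1, e2⟩
        · exact key a (by rintro rfl; simp at ha)
        · have := key (1 + a) fun h => ha (by rw [eq_neg_of_add_eq_zero_right h]; simp)
          rwa [add_smul, one_smul] at this

end H55.C7
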