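import Cfsg.Agent.H55.C7UG

/-! C7 tower, job UQ: if (Q) fails for unitary factors then all pure transvections occur. -/

set_option autoImplicit false

namespace H55.C7
open Cfsg Cfsg.Geo Matrix H19 H60.Wr Module
open scoped MatrixGroups

universe u

variable {F : Type u} [Field F] {k t : ℕ} {B : Frm (Fin k) F} {M : Subgroup (GG k t F)}
  {a : F} {y v : Fin k → F}

theorem D_mem {Γ : Subgroup (GL (Fin k) F)} {j : Fin t} {ℬ : AddSubgroup (EE k t F)}
    (h : ∀ s ∈ Γ, ∀ X ∈ ℬ, cj (emG j s) X ∈ ℬ) {ν : Mk k F} (hν : In Γ (1 + ν)) (h2 : ν * ν = 0)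
    {Z : EE k t F} (hZ : Z ∈ ℬ) : em j ν * Z - Z * em j ν - em j ν * Z * em j ν ∈ ℬ := by
  obtain ⟨s, hs, e⟩ := hν
  have := h s hs Z hZ
  rw [cj_of_val (X := em j ν) (by rw [coe_emG, e, map_add, map_one])
    (by rw [← map_mul, h2, map_zero])] at this
  simpa using ℬ.sub_mem this hZ

theorem smul_sq (hy : B.f y y = 0) (d : F) : d • rf B y y * d • rf B y y = 0 := by
  rw [smul_mul_smul_comm, rf_sq hy, smul_zero]

theorem isoP (H : UC B M) : IsoP t (Gam M) {c | B.σ c = c} (RN B) := by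
  intro j ℬ h1 h2 γ hγ hC
  obtain ⟨a, ha⟩ := H.sig
  obtain ⟨d, d0, hd⟩ := ex_tz ha
  rcases H.big with h4 | ⟨-, τ, t1, t2, t3⟩
  · obtain ⟨x, hx, y, hy, e, e', hβ⟩ : ∃ x ∈ IsoV B, ∃ y ∈ IsoV B, B.f y x = 0 ∧ y ∉ F ∙ x ∧
        ct j (ph B y) x γ ≠ 0 := by
      by_contra! h
      refine hC (InC.of_cpt fun l => sc_of_iso ha H.eps H.gf fun x hx => ?_)
      have : Submodule.span F {y | y ∈ IsoV B ∧ B.f y x = 0 ∧ y ∉ F ∙ x} ≤
          pp B (cpt j l γ *ᵥ x) := Submodule.span_le.2 fun y hy => by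
        change B.f y _ = 0
        rw [B.eq_zero_comm, ← ph_dot, cpt_spec, h x hx y hy.1 hy.2.1 hy.2.2, map_zero]
      exact B.eq_zero_comm.1 (this ((H.gf2 h4).pp x hx (mem_pp.2 hx.2)))
    have e1 := D_mem h1 (UC_tv H hx.2 hd) (smul_sq hx.2 d)
      (D_mem h1 (UC_tv H hy.2 hd) (smul_sq hy.2 d) hγ)
    have z1 : (em j (rf B x x) * em j (rf B y y) : EE k t F) = 0 := by
      rw [← map_mul, rf_mul_rf, e, zero_smul, map_zero]
    have z2 : (em j (rf B y y) * em j (rf B x x) : EE k t F) = 0 := by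
      rw [← map_mul, rf_mul_rf, B.eq_zero_comm.1 e, zero_smul, map_zero]
    have z3 : ∀ Z, (em j (rf B x x) * (em j (rf B y y) * Z) : EE k t F) = 0 := fun Z => by
      rw [← mul_assoc, z1, zero_mul]
    have e2 : em j (rf B x y) * (d * d) • ct j (ph B x) y γ +
        em j (rf B y x) * (d * d) • ct j (ph B y) x γ ∈ ℬ := by
      convert ℬ.neg_mem e1 using 1
      rw [mul_smul_comm, mul_smul_comm, ← ct_spec, ← ct_spec]
      simp only [map_smul, mul_sub, sub_mul, smul_mul_assoc, mul_smul_comm, mul_assoc, z2, z3,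
        mul_zero, smul_zero]
      module
    have c1 := (ct_inC j (ph B x) y γ).smul (d * d)
    have c2 := (ct_inC j (ph B y) x γ).smul (d * d)
    have c3 := smul_ne_zero (mul_ne_zero d0 d0) hβ
    generalize (d * d) • ct j (ph B x) y γ = α at e2 c1
    generalize (d * d) • ct j (ph B y) x γ = β at e2 c2 c3
    obtain ⟨v, v1, v2⟩ := exists_f_of_notMem (B := B) e'
    replace v2 := v2 x (Submodule.mem_span_singleton_self x)
    have key : ∀ m : F, em j (rf B x x) * (B.σ m • α + m • β) ∈ ℬ := fun m => by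
      obtain ⟨c, s, hs, es⟩ := H.gf.eich x (B.σ m • v) hx.2 (by
        rw [B.smul_left, B.eq_zero_comm.1 v2, mul_zero])
      have s1 : (s : Mk k F) *ᵥ x = x := by
        simp [es, add_mulVec, sub_mulVec, smul_mulVec, rf_mulVec, hx.2, B.smul_right, v2]
      have s2 : (s : Mk k F) *ᵥ y = y + m • x := by
        simp [es, add_mulVec, sub_mulVec, smul_mulVec, rf_mulVec, e, B.smul_right, v1, B.invol]
      have := h1 s hs _ e2
      rw [map_add, map_mul, map_mul, cj_emG_em, cj_emG_em, c1.cj_emG, c2.cj_emG,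
        cj_rf (H.gf.iso hs), cj_rf (H.gf.iso hs), s1, s2, rf_add_right, rf_smul_right, rf, rf,
        rf, ro_add_left, ro_smul_left] at this
      convert ℬ.sub_mem this e2 using 1
      simp only [map_add, map_smul, add_mul, mul_add, smul_mul_assoc, mul_smul_comm]
      abel
    by_cases h0 : B.σ 1 • α + (1 : F) • β = 0
    · refine ⟨_, ⟨x, hx, rfl⟩, _, (c1.smul _).add (c2.smul _), fun h3 => c3 ?_, key a⟩
      rw [map_one, one_smul, one_smul] at h0
      refine smul_right_injective _ (sub_ne_zero.2 ha) ?_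
      linear_combination (norm := module) B.σ a • h0 - h3
    · exact ⟨_, ⟨x, hx, rfl⟩, _, (c1.smul _).add (c2.smul _), h0, key 1⟩
  · obtain ⟨x, hx, h⟩ : ∃ x ∈ IsoV B, ct j (ph B x) x γ ≠ 0 := by
      by_contra! h
      exact hC (InC.of_cpt fun l => sc_of_iso ha H.eps H.gf fun x hx => by
        rw [← ph_dot, cpt_spec, h x hx, map_zero])
    have e1 := h2 τ t1 _ (D_mem h1 (UC_tv H hx.2 hd) (smul_sq hx.2 d) hγ)
    have e2 := D_mem h1 (UC_tv H hx.2 (d := τ * d) (by rw [map_mul, t1, hd, mul_neg]))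
      (smul_sq hx.2 _) hγ
    refine ⟨_, ⟨x, hx, rfl⟩, (τ * (τ - 1) * (d * d)) • ct j (ph B x) x γ, (ct_inC _ _ _ _).smul _,
      smul_ne_zero (mul_ne_zero (mul_ne_zero t2 (sub_ne_zero.2 t3)) (mul_ne_zero d0 d0)) h, ?_⟩
    convert ℬ.sub_mem e1 e2 using 1
    rw [mul_smul_comm, ← ct_spec]
    simp only [map_smul, smul_mul_assoc, mul_smul_comm]
    module

/-- The map `X_{vy}`. -/
abbrev XX (B : Frm (Fin k) F) (v y : Fin k → F) : Mk k F := rf B v y + rf B y v

theorem XX_mul (hy : B.f y y = 0) (hv : B.f v y = 0) {v' : Fin k → F} (hv' : B.f v' y = 0) :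
    XX B v y * XX B v' y = B.f v' v • rf B y y := by
  simp [add_mul, mul_add, rf_mul_rf, hy, hv', B.eq_zero_comm.1 hv]

theorem XX_mem [Finite F] (H : UC B M) {S : AddSubgroup (Mk k F)}
    (h : ∀ s ∈ Gam M, ∀ b ∈ S, cj s b ∈ S) (hy : y ∈ IsoV B) (hN : rf B y y ∈ S)
    (hv : B.f v y = 0) : XX B v y ∈ S := by
  obtain ⟨a, ha⟩ := H.sig
  obtain ⟨d, d0, hd⟩ := ex_tz ha
  have k1 : ∀ x ∈ IsoV B, rf B x x ∈ S := fun x hx => by
    obtain ⟨s, hs, e⟩ := H.gf.tr y hy x hx
    have := h s hs _ hN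
    rwa [cj_rf (H.gf.iso hs), e] at this
  have k2 : ∀ c, B.σ c = c → c • rf B y y ∈ S := fun c hc => by
    obtain ⟨l, rfl⟩ := ex_norm ha hc
    by_cases l0 : l = 0
    · simp [l0]
    · exact rf_smul_smul (B := B) l y ▸ k1 _ (smul_iso hy l0)
  have k3 : ∀ z ∈ IsoV B, B.f y z = 1 → d • (rf B y z - rf B z y) ∈ S := fun z hz e => by
    obtain ⟨s, hs, es⟩ := UC_tv H hy.2 hd
    have := h s hs _ (k1 z hz)
    rw [cj_of_val es (smul_sq hy.2 d)] at this
    convert S.add_mem (S.sub_mem this (k1 z hz)) (k2 (d * d) (by rw [map_mul, hd]; ring)) using 1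
    simp only [smul_mul_assoc, mul_smul_comm, rf_mul_rf, e, f_one H.eps e, one_smul]
    module
  obtain ⟨y', hy', e⟩ := H.gf.hyp y hy
  obtain ⟨m, h1, h2⟩ := ex_z ha H.eps hy e (v := d⁻¹ • v) (by rw [B.smul_left, hv, mul_zero])
  convert S.sub_mem (S.sub_mem (k3 _ h1 h2) (k3 _ hy' e)) (k2 (d * (B.σ m - m)) (by
    rw [map_mul, map_sub, hd, B.invol]; ring)) using 1
  simp only [rf_add_right, rf_sub_right, rf_smul_right, ro_add_left, ro_sub_left, ro_smul_left,
    map_inv₀, hd, XX]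
  match_scalars <;> field_simp <;> ring

omit [Field F] in
theorem ind {P : (Fin t → Mk k F) → Prop} {p q : Fin t → Mk k F} (h0 : P p)
    (step : ∀ p' j, (∀ l, p' l = p l ∨ p' l = q l) → p' j = p j → P p' →
      P (Function.update p' j (q j))) : P q := by
  have key : ∀ I : Finset (Fin t), P fun l => if l ∈ I then q l else p l := fun I => by
    induction I using Finset.induction_on with
    | empty => simpa using h0
    | insert j I hj ih =>
      convert step _ j (fun l => by split_ifs <;> simp) (by simp [hj]) ih using 1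
      funext l
      by_cases e : l = j
      · subst e; simp
      · simp [e]
  simpa using key Finset.univ

theorem repl [Finite F] (H : UC B M) (hy : y ∈ IsoV B) {r : F} {p q : Fin t → Mk k F}
    (h : In M (1 + r • pure p)) (d : Fin t) (h1 : p d * p d = 0) (h2 : q d = p d)
    (h3 : ∀ j, q j = p j ∨ (p j = rf B y y ∧ ∃ v, B.f v y = 0 ∧ q j = XX B v y)) :
    In M (1 + r • pure q) := by
  refine ind (P := fun p => In M (1 + r • H19.pure p)) h fun p' j e1 e2 ih => ?_
  by_cases e : q j = p j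
  · rwa [e, ← e2, Function.update_eq_self]
  obtain ⟨e3, v, hv, e4⟩ := (h3 j).resolve_left e
  have hd : ∃ e, e ≠ j ∧ p' e * p' e = 0 := ⟨d, by rintro rfl; exact e h2, by
    rcases e1 d with h | h <;> simp only [h, h2, h1]⟩
  rw [← mem_slot (h := hd), e4]
  exact XX_mem H (fun s hs b hb => cj_mem_slot hs hb) hy (by
    rwa [mem_slot, ← e3, ← e2, Function.update_eq_self]) hv

theorem repl_cj (H : UC B M) {r : F} {p q : Fin t → Mk k F} (h : In M (1 + r • pure p))
    (h3 : ∀ j, q j = p j ∨ (p j ∈ RN B ∧ q j ∈ RN B)) : In M (1 + r • pure q) := by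
  refine ind (P := fun p => In M (1 + r • H19.pure p)) h fun p' j _ e2 ih => ?_
  rcases h3 j with e | ⟨⟨x, hx, e3⟩, z, hz, e4⟩
  · rwa [e, ← e2, Function.update_eq_self]
  obtain ⟨s, hs, e⟩ := H.gf.tr x hx z hz
  have := ih.cj_pure j hs
  rwa [e2, e3, cj_rf (H.gf.iso hs), e, ← e4] at this

/-- The state on `J`. -/
def St (B : Frm (Fin k) F) (M : Subgroup (GG k t F)) (y : Fin k → F) (J : Finset (Fin t)) : Prop :=
  ∃ r : F, r ≠ 0 ∧ In M (1 + r • pure fun j => if j ∈ J then rf B y y else 1)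

theorem grow [Finite F] (H : UC B M) (hy : y ∈ IsoV B) {J : Finset (Fin t)} {d e u : Fin t}
    (hd : d ∈ J) (he : e ∈ J) (hde : d ≠ e) (hu : u ∉ J) (h : St B M y J) :
    St B M y (insert u J) := by
  obtain ⟨a, ha⟩ := H.sig
  obtain ⟨v, hv, v0⟩ := ex_nonIso ha H.eps (UC_k3 H) hy.1
  obtain ⟨r, r0, h⟩ := h
  have du : d ≠ u := by rintro rfl; exact hu hd
  have eu : e ≠ u := by rintro rfl; exact hu he
  obtain ⟨σ, hσ, s1, s2, s3, s4⟩ := exists_cyc hde eu du
  have sq := rf_sq hy.2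
  have hl : ∀ l : F, B.f (l • v) y = 0 := fun l => by rw [B.smul_left, hv, mul_zero]
  have n1 := repl H hy h
    (q := fun j => if j = d then rf B y y else if j ∈ J then XX B v y else 1) d
    (by simp [hd, sq]) (by simp [hd]) fun j => by
      by_cases c1 : j = d
      · simp [c1, hd]
      by_cases c2 : j ∈ J
      · exact Or.inr ⟨by simp [c2], v, hv, by simp [c1, c2]⟩
      · simp [c1, c2]
  have n2 := repl H hy (h.perm_pure H.cyc hσ)
    (q := fun j => if j = u then rf B y y else if j ∈ J ∧ j ≠ d then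
      XX B ((if j = e then a else 1) • v) y else 1) u
    (by simp [s2, he, sq]) (by simp [s2, he]) fun j => by
      by_cases c1 : j = u
      · simp [c1, s2, he]
      by_cases c2 : j = d
      · simp [c2, s3, hu, du]
      by_cases c3 : j = e
      · exact Or.inr ⟨by simp [c3, s1, hd], _, hl a, by simp [c3, eu, he, hde.symm]⟩
      by_cases c4 : j ∈ J
      · exact Or.inr ⟨by simp [s4 j c2 c3 c1, c4], _, hl 1, by simp [c1, c2, c3, c4]⟩
      · simp [s4 j c2 c3 c1, c1, c4]
  have n3 := n1.comm_pure n2 ⟨d, by simp [sq]⟩ ⟨u, by simp [sq]⟩ ⟨d, by simp [sq, du]⟩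
    ⟨u, by simp [sq, du.symm, hu]⟩
  have e1 : ∀ l : F, ∏ j : Fin t, ((if j = e then l else 1) *
      if j ∈ J ∧ j ≠ d then B.f v v else 1) = l * ∏ j : Fin t, if j ∈ J ∧ j ≠ d then B.f v v else 1 :=
    fun l => by rw [Finset.prod_mul_distrib]; simp
  refine ⟨r * r * ((a - B.σ a) * ∏ j : Fin t, if j ∈ J ∧ j ≠ d then B.f v v else 1),
    mul_ne_zero (mul_ne_zero r0 r0) (mul_ne_zero (sub_ne_zero.2 ha.symm)
      (Finset.prod_ne_zero_iff.2 fun j _ => by split_ifs <;> simp [v0])), ?_⟩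
  rw [mul_smul (r * r), sub_mul, sub_smul, ← e1, ← e1, ← pure_smul, ← pure_smul]
  convert n3 using 5 <;> funext j <;> rw [Pi.mul_apply] <;> by_cases c1 : j = u
  · simp [c1, eu.symm, du.symm, hu]
  · by_cases c2 : j = d
    · simp [c2, du, hde, hd]
    by_cases c4 : j ∈ J
    · simp only [c1, c2, c4, if_false, if_true, Finset.mem_insert, or_true, true_and, Ne,
        not_false_iff]
      rw [XX_mul hy.2 hv (hl _), B.smul_left]
    · have : j ≠ e := by rintro rfl; exact c4 he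
      simp [c1, c2, c4, this]
  · simp [c1, eu.symm, du.symm, hu]
  · by_cases c2 : j = d
    · simp [c2, du, hde, hd]
    by_cases c4 : j ∈ J
    · simp only [c1, c2, c4, if_false, if_true, Finset.mem_insert, or_true, true_and, Ne,
        not_false_iff]
      rw [XX_mul hy.2 (hl _) hv, B.smul_right]
      split_ifs <;> simp
    · have : j ≠ e := by rintro rfl; exact c4 he
      simp [c1, c2, c4, this]

theorem jobUQ : JobUQ.{u} := by
  intro F _ _ k t B M H hQ
  obtain ⟨a, ha⟩ := H.sig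
  simp only [QQ, not_forall] at hQ
  obtain ⟨i, _, ⟨y, hy, rfl⟩, γ, g1, g2, g3⟩ := hQ
  obtain ⟨J, p, r, ⟨e, he⟩, hi, hp, hp', r0, -, h⟩ := chain (isoP H)
    (by rintro ⟨x, hx, e⟩; exact rf_ne_zero hx.1 hx.1 e.symm) i (AA M i _ (rf_sq hy.2))
    (fun j hj s hs X hX => cj_mem_AA (mem_Gam.1 hs j) (InC.emG hj.symm s) hX)
    (fun c hc X hX => by
      obtain ⟨l, rfl⟩ := ex_norm ha hc
      by_cases l0 : l = 0
      · simp [l0]
      obtain ⟨s, hs, e⟩ := H.gf.tr y hy _ (smul_iso hy l0)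
      exact smul_mem_AA hs (by rw [cj_rf (H.gf.iso hs), e, rf_smul_smul]) hX)
    (fun X hX => hX.1) ⟨g1, g2⟩ g3
  rw [mul_smul_comm, em_mul_pure, hp' i hi, mul_one] at h
  have h0 : St B M y (insert i J) := ⟨r, r0, repl_cj H h fun j => by
    by_cases c1 : j = i
    · simp [c1]
    by_cases c2 : j ∈ J
    · exact Or.inr ⟨by simpa [c1] using hp j c2, y, hy, by simp [c2]⟩
    · simp [c1, c2, hp' j c2]⟩
  have key : ∀ I : Finset (Fin t), St B M y (I ∪ insert i J) := fun I => by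
    induction I using Finset.induction_on with
    | empty => simpa using h0
    | insert u I _ ih =>
      rw [Finset.insert_union]
      by_cases hu : u ∈ I ∪ insert i J
      · rwa [Finset.insert_eq_of_mem hu]
      · exact grow H hy (d := i) (e := e) (by simp) (by simp [he]) (by rintro rfl; exact hi he) hu ih
  obtain ⟨r, r0, h⟩ := key Finset.univ
  simp only [Finset.mem_union, Finset.mem_univ, true_or, if_true] at h
  have p0 : (pure fun _ : Fin t => rf B y y) ≠ 0 := pure_ne_zero fun _ => rf_ne_zero hy.1 hy.1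
  have hr : B.σ r = -r := by
    have h1 := (h.mono H.le).skew (by
      rw [pure_smul_mul, pure_eq_zero (i := i) (rf_sq hy.2), smul_zero])
    simp only [Frm.adj_smul, Frm.adj_pow_pure, adj_rf, H.eps, one_smul, pow_sig, ← neg_smul] at h1
    exact smul_left_injective F p0 h1
  intro x hx c hc
  obtain ⟨l, hl⟩ := ex_norm ha (c := c / r) (by
    rw [map_div₀, hr, eq_neg_of_add_eq_zero_right hc, neg_div_neg_eq])
  by_cases l0 : l = 0
  · rw [l0, zero_mul, eq_comm, div_eq_zero_iff, or_iff_left r0] at hl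
    simpa [hl] using In.one
  have h1 := repl_cj H h (q := Function.update (fun j => rf B (x j) (x j)) i
      (rf B (l • x i) (l • x i))) fun j => Or.inr ⟨⟨y, hy, rfl⟩, by
    by_cases c1 : j = i
    · subst c1; exact ⟨_, smul_iso (hx j) l0, by simp⟩
    · exact ⟨_, hx j, by simp [c1]⟩⟩
  rwa [rf_smul_smul, pure_update_smul, Function.update_eq_self i fun j => rf B (x j) (x j),
    smul_smul, hl, mul_div_cancel₀ _ r0] at h1

end H55.C7
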