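import Cfsg.Agent.H2.KpSpec
import Cfsg.Agent.H71.LnBlk

/-! Tower KP, slot STEP. -/

set_option autoImplicit false

namespace H55.KpStep

open Equiv MulAction H2.Kp
open H2.Ln (sp Tr Blk mem_sp)

theorem blk_dvd {α : Type} [Fintype α] [DecidableEq α] {M : Subgroup (Perm α)}
    (tr : IsPretransitive M α) {C : Finset α} (hC : Blk M C) :
    ∃ c, 2 ≤ c ∧ Fintype.card α = C.card * c := by
  have h1 : (sp M).card ≤ Fintype.card α := Finset.card_le_univ _
  have h2 := hC.2.1
  have h3 := hC.2.2.1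
  have hs : sp M = Finset.univ := by
    refine Finset.eq_univ_of_forall fun a => mem_sp.2 ?_
    obtain ⟨b, hb⟩ := Fintype.exists_ne_of_one_lt_card (α := α) (by omega) a
    obtain ⟨x, hx⟩ := tr.exists_smul_eq a b
    exact ⟨x.1, x.2, fun k => hb (hx.symm.trans k)⟩
  have hT : Tr M := fun a _ b _ => by
    obtain ⟨x, hx⟩ := tr.exists_smul_eq a b
    exact ⟨x.1, x.2, hx⟩
  obtain ⟨c, β, -, -, -, hc⟩ := H71.LnBlk.jobB1 α M C hT hC
  rw [hs, Finset.card_univ] at hc h3
  refine ⟨c, ?_, hc⟩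
  by_contra k
  have : c = 0 ∨ c = 1 := by omega
  rcases this with e | e <;> rw [e] at hc <;> omega

theorem jobHalfA : KB → GA → Half0 → QQ → HalfA := by
  intro kb ga h0 qq α _ _ M p hp ih hM n3 tr B hB h2 h10 hC
  obtain ⟨H, N, X, Y, hH, -, hk, hX, ⟨e⟩, tX, bX, -⟩ := h0 α M tr B hB h2
  have cB : Fintype.card B = B.card := Fintype.card_coe B
  have cY : Fintype.card (Bᶜ : Finset α) = B.card := by
    rw [Fintype.card_coe, Finset.card_compl]; omega
  have k1 : kc M ≤ 2 * kc H := by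
    have := kb.idx M ⊤ H le_top
    rwa [kc_top, Subgroup.relIndex_top_right, hH] at this
  have k2 : kc N ≤ gg B.card := by
    have := ih (Bᶜ : Finset α) Y (by omega) fun k => hM (k.trans (by
      rw [← Nat.card_congr e.toEquiv]; exact Subgroup.card_subgroup_dvd_card N))
    rw [cY] at this
    exact (kk_congr e).trans_le this
  have k3 : QB B.card (kc X) := by
    have := qq B X p hp (fun γ _ L hγ hL => ih γ L (by omega) hL) (fun k => hM (k.trans hX))
      (by omega) tX fun C hC' => by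
        obtain ⟨C', c1, c2⟩ := bX C hC'
        obtain ⟨c, d1, d2⟩ := blk_dvd tX hC'
        refine ⟨?_, by omega⟩
        rcases hC C' c1 with k | k
        · omega
        · exfalso
          have : C.card * 2 ≤ C.card * c := Nat.mul_le_mul_left _ d1
          omega
    rwa [cB] at this
  have k4 := ga.half B.card (kc X) (by omega) k3
  rw [h2] at k4
  exact k1.trans ((Nat.mul_le_mul_left 2 (hk.trans (Nat.mul_le_mul_left _ k2))).trans k4)

theorem jobStep : GA → Intr → Blk3 → HalfA → HalfB → QQ → Step := by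
  intro ga hi h3 hA hB qq α _ _ M p hp ih hM n3
  by_cases tr : IsPretransitive M α
  swap
  · exact hi α M p hp ih hM n3 tr
  by_cases c3 : ∃ B, Blk M B ∧ 3 ≤ B.card ∧ 3 * B.card ≤ Fintype.card α
  · obtain ⟨B, b1, b2, b3⟩ := c3
    exact h3 α M p hp ih hM n3 tr B b1 b2 b3
  have c4 : ∀ C, Blk M C → C.card = 2 ∨ Fintype.card α < 3 * C.card := fun C hC => by
    have := hC.2.1
    by_contra k
    exact c3 ⟨C, hC, by omega, by omega⟩
  by_cases c2 : ∃ B, Blk M B ∧ 2 * B.card = Fintype.card α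
  · obtain ⟨B, b1, b2⟩ := c2
    by_cases h10 : 10 ≤ Fintype.card α
    · exact hA α M p hp ih hM n3 tr B b1 b2 h10 c4
    · exact hB α M p hp ih hM n3 tr B b1 b2 (by omega)
  refine ga.qb _ _ n3 (qq α M p hp ih hM n3 tr fun C hC => ?_)
  obtain ⟨c, d1, d2⟩ := blk_dvd tr hC
  have d3 : c ≠ 2 := fun k => c2 ⟨C, hC, by rw [d2, k, mul_comm]⟩
  have d4 : C.card * 3 ≤ C.card * c := Nat.mul_le_mul_left _ (by omega)
  have := hC.2.1
  rcases c4 C hC with k | k <;> omega

end H55.KpStep
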