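import Cfsg.Agent.H55.LdTU

/-! LD5, slot T2: quasisimple subgroups of `SU₅(2)` generated by transvections. -/

set_option autoImplicit false

open Matrix Cfsg Cfsg.Geo H19 H41.LD H54.T5 H59 H62
open scoped MatrixGroups

namespace H55.LD

universe u

variable {F : Type u} [Field F] [Fintype F] (hF : Fintype.card F = 2 ^ 2)

section field
include hF

theorem two0 : (2 : F) = 0 := by
  have := FiniteField.cast_card_eq_zero F
  rw [hF] at this
  exact pow_eq_zero_iff (two_ne_zero' ℕ) |>.1 (by exact_mod_cast this : (2 : F) ^ 2 = 0)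

theorem cube {a : F} (h : a ≠ 0) : a ^ 3 = 1 := by
  have := FiniteField.pow_card_sub_one_eq_one a h
  rwa [hF] at this

theorem exists_om : ∃ w : F, w ≠ 0 ∧ w ^ 2 + w + 1 = 0 := by
  obtain ⟨x, hx⟩ := exists_not_fixed (frob_ne_id hF)
  have h0 : x ≠ 0 := by rintro rfl; simp at hx
  have h1 : x - 1 ≠ 0 := fun e => hx (by rw [sub_eq_zero.1 e]; simp)
  exact ⟨x, h0, mul_left_cancel₀ h1 (by linear_combination cube hF h0)⟩

theorem bf (x y : Fin 5 → F) : uForm hF 5 x y =
    x 0 ^ 2 * y 0 + x 1 ^ 2 * y 1 + x 2 ^ 2 * y 2 + x 3 ^ 2 * y 3 + x 4 ^ 2 * y 4 := by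
  rw [stdForm_apply, Fin.sum_univ_five]; rfl

end field

/-- vectors of weight two -/
def W2 (y : Fin 5 → F) : Prop :=
  ∃ i j a b, i ≠ j ∧ a ≠ 0 ∧ b ≠ 0 ∧ y = Pi.single i a + Pi.single j b

theorem wt {y : Fin 5 → F} (h : uForm hF 5 y y = 0) :
    y = 0 ∨ W2 y ∨ ∃ j, y j = 0 ∧ ∀ i, i ≠ j → y i ≠ 0 := by
  classical
  let S := Finset.univ.filter fun i => y i ≠ 0
  have hS : ∀ i, i ∈ S ↔ y i ≠ 0 := fun i => by simp [S]
  have h1 : (S.card : F) = 0 := by
    rw [← h, stdForm_apply, Finset.card_filter, Nat.cast_sum]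
    refine Finset.sum_congr rfl fun i _ => ?_
    by_cases e : y i = 0
    · simp [e]
    · simp [e, frob_apply, ← pow_succ, cube hF e]
  have h2 : S.card ≤ 5 := by simpa using Finset.card_le_univ S
  have h3 : S.card % 2 = 0 := by
    by_contra e
    rw [← Nat.div_add_mod S.card 2, show S.card % 2 = 1 by omega] at h1
    simp [two0 hF] at h1
  rcases (by omega : S.card = 0 ∨ S.card = 2 ∨ S.card = 4) with e | e | e
  · exact Or.inl (funext fun i => by_contra fun hi => by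
      simpa [Finset.card_eq_zero.1 e] using (hS i).2 hi)
  · obtain ⟨i, j, a, e⟩ := Finset.card_eq_two.1 e
    refine Or.inr (Or.inl ⟨i, j, y i, y j, a, (hS i).1 (by simp [e]), (hS j).1 (by simp [e]),
      funext fun k => ?_⟩)
    by_cases e1 : k = i
    · simp [e1, a]
    by_cases e2 : k = j
    · simp [e2, a.symm]
    have : y k = 0 := by_contra fun hk => by simpa [e, e1, e2] using (hS k).2 hk
    simp [e1, e2, this]
  · obtain ⟨j, hj⟩ := Finset.card_eq_one.1 (show Sᶜ.card = 1 by simp [Finset.card_compl, e])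
    have : ∀ i, y i = 0 ↔ i = j := fun i => by
      rw [← Finset.mem_singleton (a := j), ← hj, Finset.mem_compl, hS, not_not]
    exact Or.inr (Or.inr ⟨j, (this j).2 rfl, fun i hi e => hi ((this i).1 e)⟩)

/-- a closed irreducible system of isotropic vectors -/
structure Sys (J : (Fin 5 → F) → Prop) : Prop where
  smul : ∀ {x}, J x → ∀ a : F, J (a • x)
  mv : ∀ {p r}, J p → J r → J (r + uForm hF 5 p r • p)
  iso : ∀ {p}, J p → uForm hF 5 p p = 0
  out : ∀ W : Submodule F (Fin 5 → F), W ≠ ⊥ → W ≠ ⊤ →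
    ∃ p, J p ∧ p ∉ W ∧ ∃ w ∈ W, uForm hF 5 p w ≠ 0

/-- all vectors of weight two with support `i`, `j` -/
def Fr (J : (Fin 5 → F) → Prop) (i j : Fin 5) : Prop :=
  ∀ a b : F, a ≠ 0 → b ≠ 0 → J (Pi.single i a + Pi.single j b)

variable {hF} {J : (Fin 5 → F) → Prop} {x y : Fin 5 → F} {i j l : Fin 5}

omit [Fintype F] in
theorem Fr.symm (h : Fr J i j) : Fr J j i := fun a b ha hb => add_comm (G := Fin 5 → F) _ _ ▸ h b a hb ha

namespace Sys

theorem comp (h : Sys hF J) {g : (Fin 5 → F) ≃ₗ[F] (Fin 5 → F)} (hg : g ∈ isom (uForm hF 5)) :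
    Sys hF fun x => J (g x) where
  smul hx a := by simpa using h.smul hx a
  mv hp hr := by simpa [mem_isom.1 hg] using h.mv hp hr
  iso hp := (hg _ _).symm.trans (h.iso hp)
  out W h0 h1 := by
    obtain ⟨p, a, b, _, ⟨w, hw, rfl⟩, c⟩ := h.out (W.map (g : _ →ₗ[F] _))
      (by rwa [Ne, Submodule.map_eq_bot_iff]) (by rwa [Ne, Submodule.map_eq_top_iff])
    obtain ⟨p, rfl⟩ := g.surjective p
    exact ⟨p, a, fun e => b ⟨p, e, rfl⟩, w, hw, fun e => c ((hg p w).trans e)⟩

theorem sw (h : Sys hF J) (hij : i ≠ j) (f : Fr J i j) {η : F} (hη : η ≠ 0) (hx : J x) :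
    J fun k => if k = i then η ^ 2 * x j else if k = j then η * x i else x k := by
  have h2 := two0 hF
  convert h.mv (f 1 η one_ne_zero hη) hx using 1
  funext k
  simp only [map_add, LinearMap.add_apply, stdForm_single_left, frob_apply, Pi.add_apply,
    Pi.smul_apply, smul_eq_mul]
  by_cases e1 : k = i
  · simp only [e1, if_true, Pi.single_eq_same, Pi.single_eq_of_ne hij]
    linear_combination (-x i) * h2
  by_cases e2 : k = j
  · simp only [e2, hij.symm, if_true, if_false, Pi.single_eq_same, Pi.single_eq_of_ne hij.symm]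
    linear_combination (-x j) * h2 - (x j) * cube hF hη
  simp [e1, e2]

theorem pm (h : Sys hF J) (f : i ≠ j → Fr J i j) (hx : J x) : J (x ∘ Equiv.swap i j) := by
  by_cases hij : i = j
  · simpa [hij] using hx
  convert h.sw hij (f hij) one_ne_zero hx using 1
  funext k
  simp only [Function.comp_apply, Equiv.swap_apply_def, one_pow, one_mul]
  split_ifs <;> rfl

theorem sc (h : Sys hF J) (hij : i ≠ j) (f : Fr J i j) (h0 : x j = 0) {η : F} (hη : η ≠ 0)
    (hx : J x) : J (Function.update x i (η * x i)) := by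
  convert h.sw hij f one_ne_zero (h.sw hij f hη hx) using 1
  funext k
  by_cases e1 : k = i
  · simp [e1, hij.symm]
  by_cases e2 : k = j
  · simp [e2, hij.symm, h0]
  simp [e1, e2]

theorem resc (h : Sys hF J) (S : Finset (Fin 5)) (f : ∀ i ∈ S, i ≠ j → Fr J i j) (h0 : x j = 0)
    (h1 : ∀ k, x k = 0 ↔ y k = 0) (h2 : ∀ k, k ∉ S → y k = x k) (hx : J x) : J y := by
  have key : ∀ T : Finset (Fin 5), T ⊆ S → J fun k => if k ∈ T then y k else x k := by
    intro T
    induction T using Finset.induction_on with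
    | empty => simpa using hx
    | insert a T ha ih =>
      intro hT
      have h3 := ih ((Finset.subset_insert _ _).trans hT)
      by_cases e : x a = 0
      · convert h3 using 2 with k
        by_cases e1 : k = a
        · simp [e1, ha, e, (h1 a).1 e]
        · simp [e1]
      have haj : a ≠ j := fun e' => e (e' ▸ h0)
      convert h.sc haj (f a (hT (Finset.mem_insert_self _ _)) haj)
        (by simp [h0, (h1 j).1 h0]) (η := y a / x a) (div_ne_zero (fun e' => e ((h1 a).2 e')) e) h3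
        using 2 with k
      by_cases e1 : k = a
      · simp [e1, ha, e]
      · simp [e1]
  convert key S le_rfl using 2 with k
  by_cases e : k ∈ S
  · simp [e]
  · simp [e, h2 k e]

theorem ext (h : Sys hF J) (hij : i ≠ j) (hil : i ≠ l) (hjl : j ≠ l) (f : Fr J i j) {a t : F}
    (ha : a ≠ 0) (ht : t ≠ 0) (hx : J (Pi.single i a + Pi.single l t)) : Fr J j l := by
  intro b c hb hc
  convert h.smul (h.sw hij f (η := b * t / (c * a)) (by simp [*]) hx) (c / t) using 1
  funext k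
  by_cases e1 : k = i
  · simp [e1, hij, hil, hij.symm, hjl]
  by_cases e2 : k = j
  · simp [e2, hij.symm, hil, hjl]; field_simp
  by_cases e3 : k = l
  · simp [e3, hil.symm, hjl.symm, ht]
  simp [e1, e2, e3]

/-- a frame on `S` extends to a new index -/
theorem ext' (h : Sys hF J) (S : Finset (Fin 5)) (f : ∀ i ∈ S, ∀ j ∈ S, i ≠ j → Fr J i j)
    (hS : 1 < S.card) (hi : i ∈ S) (hl : l ∉ S) {a t : F} (ha : a ≠ 0) (ht : t ≠ 0)
    (hx : J (Pi.single i a + Pi.single l t)) :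
    ∀ i ∈ insert l S, ∀ j ∈ insert l S, i ≠ j → Fr J i j := by
  have n : ∀ j ∈ S, j ≠ l := fun j hj e => hl (e ▸ hj)
  have A : ∀ j ∈ S, Fr J j l := fun j hj => by
    by_cases e : i = j
    · obtain ⟨m, hm, hmi⟩ := Finset.exists_mem_ne hS i
      exact h.ext (e ▸ hmi) (n m hm) (n j hj) (f m hm j hj (e ▸ hmi)) one_ne_zero one_ne_zero
        (h.ext hmi.symm (n i hi) (n m hm) (f i hi m hm hmi.symm) ha ht hx 1 1 one_ne_zero one_ne_zero)
    · exact h.ext e (n i hi) (n j hj) (f i hi j hj e) ha ht hx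
  intro a ha b hb hab
  rcases Finset.mem_insert.1 ha with e | ha' <;> rcases Finset.mem_insert.1 hb with e' | hb'
  exacts [absurd (e.trans e'.symm) hab, e ▸ (A b hb').symm, e' ▸ A a ha', f a ha' b hb' hab]

theorem fr3 (h3 : ∀ x, uForm hF 5 x x = 0 → x 3 = 0 → x 4 = 0 → J x) :
    ∀ i ∈ ({0, 1, 2} : Finset (Fin 5)), ∀ j ∈ ({0, 1, 2} : Finset (Fin 5)), i ≠ j → Fr J i j := by
  intro i hi j hj hij a b ha hb
  have n : ∀ k ∈ ({0, 1, 2} : Finset (Fin 5)), 3 ≠ k ∧ 4 ≠ k := by decide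
  refine h3 _ ?_ (by simp [n i hi, n j hj]) (by simp [n i hi, n j hj])
  simp only [map_add, LinearMap.add_apply, stdForm_single_left, frob_apply, Pi.single_eq_same,
    Pi.single_eq_of_ne hij, Pi.single_eq_of_ne hij.symm]
  linear_combination cube hF ha + cube hF hb + two0 hF

theorem stepA0 (h : Sys hF J) (h3 : ∀ x, uForm hF 5 x x = 0 → x 3 = 0 → x 4 = 0 → J x) :
    ∃ x, J x ∧ ¬ (x 3 = 0 ↔ x 4 = 0) := by
  by_contra! hn
  have f := fr3 h3
  have h2 := two0 hF
  obtain ⟨ω, ω0, hω⟩ := exists_om hF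
  obtain ⟨p, p1, p2, w, hw, p3⟩ := h.out
    (LinearMap.ker (LinearMap.proj 3) ⊓ LinearMap.ker (LinearMap.proj 4))
    (Submodule.ne_bot_iff _ |>.2 ⟨Pi.single 0 1, by simp, by simp⟩)
    (fun e => by simpa using Submodule.eq_top_iff'.1 e (Pi.single 3 1))
  simp only [Submodule.mem_inf, LinearMap.mem_ker, LinearMap.proj_apply] at p2 hw
  have s0 : p 3 ≠ 0 := fun e => p2 ⟨e, (hn p p1).1 e⟩
  have t0 : p 4 ≠ 0 := fun e => s0 ((hn p p1).2 e)
  obtain ⟨j, j1, j2⟩ : ∃ j, p j = 0 ∧ ∀ i, i ≠ j → p i ≠ 0 := by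
    refine ((wt hF (h.iso p1)).resolve_left (by rintro rfl; simp at s0)).resolve_left ?_
    rintro ⟨i, j, a, b, -, -, -, rfl⟩
    refine p3 ?_
    have a1 : i = 3 ∨ j = 3 := by by_contra! e; simp [e.1.symm, e.2.symm] at s0
    have a2 : i = 4 ∨ j = 4 := by by_contra! e; simp [e.1.symm, e.2.symm] at t0
    have a3 : w i = 0 ∧ w j = 0 := by
      rcases a1 with rfl | rfl <;> rcases a2 with e | e <;> simp_all
    simp [stdForm_single_left, a3]
  have hj : j ∈ ({0, 1, 2} : Finset (Fin 5)) := by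
    have a1 : j ≠ 3 := by rintro rfl; exact s0 j1
    have a2 : j ≠ 4 := by rintro rfl; exact t0 j1
    clear j1 j2
    revert j; decide
  have K : ∀ a b, a ≠ 0 → b ≠ 0 → J ![a, b, 0, p 3, p 4] := fun a b ha hb =>
    h.resc (j := 2) {0, 1, 2} (fun i hi => f i hi 2 (by decide)) (by simpa) (fun k => by
      fin_cases hj <;> fin_cases k <;> simp [Equiv.swap_apply_def, *])
      (fun k hk => by fin_cases hj <;> fin_cases k <;> simp [Equiv.swap_apply_def] at hk ⊢)
      (h.pm (f j hj 2 (by decide)) p1)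
  have K' : ∀ a b, a ≠ 0 → b ≠ 0 → J ![a, 0, b, p 3, p 4] := fun a b ha hb => by
    convert h.pm (f 1 (by decide) 2 (by decide)) (K a b ha hb) using 1
    funext k; fin_cases k <;> rfl
  generalize p 3 = s at *
  generalize p 4 = t at *
  have s3 := cube hF s0
  have t3 := cube hF t0
  have key : ∀ r, J r → s ^ 2 * r 3 + t ^ 2 * r 4 ≠ 0 → r 0 = 0 ∧ r 1 = 0 ∧ r 2 = 0 := by
    intro r hr hγ
    have r4 : r 4 ≠ 0 := fun e => hγ (by rw [e, (hn r hr).2 e]; ring)
    have A : ∀ a b c, J ![a, b, c, s, t] → a ^ 2 * r 0 + b ^ 2 * r 1 + c ^ 2 * r 2 ≠ t ^ 2 * r 4 :=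
      fun a b c hp e => by
        have := (hn _ (h.mv hp hr)).1 (by
          simp [bf]
          linear_combination s * e - r 3 * s3 * 0 + (r 3) * s3 + (r 3 + s * t ^ 2 * r 4) * h2)
        simp [bf] at this
        exact hγ (by
          linear_combination t ^ 2 * this - t ^ 3 * e - (s ^ 2 * r 3 + 2 * t ^ 2 * r 4) * t3 -
            t ^ 2 * r 4 * h2)
    have B : ∀ v : F, (∀ a : F, a ≠ 0 → a ^ 2 * v ≠ t ^ 2 * r 4) → v = 0 := fun v hv => by
      by_contra e
      have e1 : t ^ 2 * r 4 / v ≠ 0 := by simp [*]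
      refine hv ((t ^ 2 * r 4 / v) ^ 2) (pow_ne_zero _ e1) ?_
      rw [show ((t ^ 2 * r 4 / v) ^ 2) ^ 2 = (t ^ 2 * r 4 / v) ^ 3 * (t ^ 2 * r 4 / v) by ring,
        cube hF e1, one_mul, div_mul_cancel₀ _ e]
    have b1 := B (r 0 + r 1) fun a ha e => A a a 0 (K a a ha ha) (by linear_combination e)
    have b2 := B (r 0 + ω ^ 2 * r 1) fun a ha e =>
      A a (ω * a) 0 (K a _ ha (mul_ne_zero ω0 ha)) (by linear_combination e)
    have b3 := B (r 0 + r 2) fun a ha e => A a 0 a (K' a a ha ha) (by linear_combination e)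
    have b4 : r 1 = 0 := mul_left_cancel₀ ω0 (by
      linear_combination b1 - b2 + r 1 * hω - (r 1) * h2 * 1 + 0 * h2)
    exact ⟨by linear_combination b1 - b4, b4, by linear_combination b3 - b1 + b4⟩
  obtain ⟨r, r1, r2, -⟩ := h.out
    (LinearMap.ker (s ^ 2 • LinearMap.proj 3 + t ^ 2 • LinearMap.proj 4 : (Fin 5 → F) →ₗ[F] F))
    (Submodule.ne_bot_iff _ |>.2 ⟨Pi.single 0 1, by simp, by simp⟩)
    (fun e => by simpa [s0] using Submodule.eq_top_iff'.1 e (Pi.single 3 1))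
  have hγ : s ^ 2 * r 3 + t ^ 2 * r 4 ≠ 0 := by simpa using r2
  obtain ⟨a0, a1, a2⟩ := key r r1 hγ
  have := (key _ (h.mv (K 1 1 one_ne_zero one_ne_zero) r1) fun e => hγ (by
    simp [bf, a0, a1, a2] at e
    linear_combination e - (s ^ 2 * r 3 + t ^ 2 * r 4) * (s3 + t3 + h2))).1
  simp [bf, a0, a1, a2] at this
  exact hγ this

theorem stepA (h : Sys hF J) (h3 : ∀ x, uForm hF 5 x x = 0 → x 3 = 0 → x 4 = 0 → J x) (hx : J x)
    (x3 : x 3 ≠ 0) (x4 : x 4 = 0) : ∃ g ∈ isom (uForm hF 5), ∀ i ∈ ({3, 0, 1, 2} : Finset (Fin 5)),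
      ∀ j ∈ ({3, 0, 1, 2} : Finset (Fin 5)), i ≠ j → Fr (fun x => J (g x)) i j := by
  have hH := isHerm_uForm hF 5
  obtain ⟨ω, ω0, hω⟩ := exists_om hF
  obtain ⟨l, l0, l1⟩ : ∃ l : F, l ≠ 0 ∧ x 0 - l ≠ 0 := by
    by_cases e : x 0 = 1
    · exact ⟨ω, ω0, fun e' => by
        rw [e, sub_eq_zero] at e'
        rw [← e'] at hω
        exact one_ne_zero (α := F) (by linear_combination hω - two0 hF)⟩
    · exact ⟨1, one_ne_zero, sub_ne_zero.2 e⟩
  obtain ⟨c, hc, e⟩ := hH.exists_qref_map (u := Pi.single 0 l) (w := ![x 0, x 1, x 2, 0, 0]) (by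
    have := h.iso hx
    rw [bf] at this
    simp [bf, x4] at this ⊢
    linear_combination cube hF l0 - this + cube hF x3 + two0 hF) (by
      rw [stdForm_single_right]
      simp [l0, l1, frob_apply])
  have hg := hH.qref_mem_isom _ c hc
  refine ⟨_, hg, (h.comp hg).ext' {0, 1, 2} (fr3 fun y h0 y3 y4 => h3 _ ((hg y y).trans h0)
    (by simp [qref_apply, y3, vecHead, vecTail]) (by simp [qref_apply, y4, vecHead, vecTail])) (by decide) (i := 0) (by decide)
    (by decide) l0 x3 ?_⟩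
  convert hx using 1
  rw [map_add, e, qref_apply, stdForm_single_right]
  funext k
  fin_cases k <;> simp [x4]

theorem stepB (h : Sys hF J) (f : ∀ i ∈ ({3, 0, 1, 2} : Finset (Fin 5)),
    ∀ j ∈ ({3, 0, 1, 2} : Finset (Fin 5)), i ≠ j → Fr J i j) : ∀ i j, i ≠ j → Fr J i j := by
  suffices H : ∃ i a t, i ≠ 4 ∧ a ≠ 0 ∧ t ≠ 0 ∧ J (Pi.single i a + Pi.single 4 t) by
    obtain ⟨i, a, t, hi, ha, ht, hx⟩ := H
    have := h.ext' _ f (by decide) (i := i) (l := 4) (by clear hx; revert i; decide) (by decide) ha ht hx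
    exact fun i j => this i (by revert i; decide) j (by revert j; decide)
  have h2 := two0 hF
  obtain ⟨ω, ω0, hω⟩ := exists_om hF
  have ω1 : ω + 1 ≠ 0 := fun e => one_ne_zero (α := F) (by linear_combination hω - ω * e)
  obtain ⟨r, r1, r2, -⟩ := h.out (LinearMap.ker (LinearMap.proj 4))
    (Submodule.ne_bot_iff _ |>.2 ⟨Pi.single 0 1, by simp, by simp⟩)
    (fun e => by simpa using Submodule.eq_top_iff'.1 e (Pi.single 4 1))
  have t0 : r 4 ≠ 0 := r2
  rcases wt hF (h.iso r1) with rfl | ⟨i, j, a, b, hij, ha, hb, rfl⟩ | ⟨j, j1, j2⟩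
  · simp at t0
  · by_cases e : j = 4
    · exact ⟨i, a, b, e ▸ hij, ha, hb, e ▸ r1⟩
    · obtain rfl : i = 4 := by by_contra e'; simp [Ne.symm e, Ne.symm e'] at t0
      exact ⟨j, b, a, e, hb, ha, add_comm (G := Fin 5 → F) _ _ ▸ r1⟩
  have hj : j ∈ ({3, 0, 1, 2} : Finset (Fin 5)) := by
    have a2 : j ≠ 4 := by rintro rfl; exact t0 j1
    clear j1 j2
    revert j; decide
  have K : ∀ a b c, a ≠ 0 → b ≠ 0 → c ≠ 0 → J ![a, b, c, 0, r 4] := fun a b c ha hb hc =>
    h.resc (j := 3) {3, 0, 1, 2} (fun i hi => f i hi 3 (by decide)) (by simpa) (fun k => by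
      fin_cases hj <;> fin_cases k <;> simp [Equiv.swap_apply_def, *])
      (fun k hk => by fin_cases hj <;> fin_cases k <;> simp [Equiv.swap_apply_def] at hk ⊢)
      (h.pm (f j hj 3 (by decide)) r1)
  have t3 := cube hF t0
  have A := h.mv (h.mv (K 1 1 1 one_ne_zero one_ne_zero one_ne_zero)
    (h.pm (f 2 (by decide) 3 (by decide)) (K ω ω 1 ω0 ω0 one_ne_zero)))
    (K (ω + 1) (ω + 1) 1 ω1 ω1 one_ne_zero)
  have e1 : uForm hF 5 ![1, 1, 1, 0, r 4] (![ω, ω, 1, 0, r 4] ∘ Equiv.swap 2 3) = 1 := by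
    simp [bf, Equiv.swap_apply_def]
    linear_combination ω * h2 + t3
  have e2 : (![ω, ω, 1, 0, r 4] ∘ Equiv.swap 2 3) + (1 : F) • ![1, 1, 1, 0, r 4] =
      ![ω + 1, ω + 1, 1, 1, 0] := by
    funext k
    fin_cases k <;> simp [Equiv.swap_apply_def]
    linear_combination r 4 * h2
  have e3 : uForm hF 5 ![ω + 1, ω + 1, 1, 1, 0] ![ω + 1, ω + 1, 1, 0, r 4] = 1 := by
    simp [bf]
    linear_combination (ω + 1) ^ 3 * h2
  rw [e1, e2, e3] at A
  refine ⟨3, 1, r 4, by decide, one_ne_zero, t0, ?_⟩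
  convert A using 1
  funext k
  fin_cases k <;> simp
  · linear_combination (-ω - 1) * h2
  · linear_combination (-ω - 1) * h2
  · linear_combination -h2

theorem stepC (h : Sys hF J) (f : ∀ i j, i ≠ j → Fr J i j) (hx : J x) (h0 : x ≠ 0) (h1 : ¬ W2 x)
    (hy : uForm hF 5 y y = 0) : J y := by
  obtain ⟨i, i1, i2⟩ := ((wt hF (h.iso hx)).resolve_left h0).resolve_left h1
  rcases wt hF hy with rfl | ⟨i, j, a, b, hij, ha, hb, rfl⟩ | ⟨j, j1, j2⟩
  · simpa using h.smul hx 0
  · exact f i j hij a b ha hb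
  refine h.resc (j := j) Finset.univ (fun i _ => f i j) (by simpa) (fun k => ?_) (by simp)
    (h.pm (f i j) hx)
  by_cases e : k = j
  · simp [e, i1, j1]
  · refine iff_of_false (i2 _ fun e' => e ?_) (j2 k e)
    rw [Equiv.swap_apply_eq_iff] at e'
    simpa using e'

theorem frame (h : Sys hF J) (h3 : ∀ x, uForm hF 5 x x = 0 → x 3 = 0 → x 4 = 0 → J x) :
    ∃ g ∈ isom (uForm hF 5), ∀ i j, i ≠ j → Fr (fun x => J (g x)) i j := by
  obtain ⟨x, hx, h1⟩ := h.stepA0 h3
  by_cases x4 : x 4 = 0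
  · obtain ⟨g, hg, f⟩ := h.stepA h3 hx (fun e => h1 (iff_of_true e x4)) x4
    exact ⟨g, hg, (h.comp hg).stepB f⟩
  have x3 : x 3 = 0 := by_contra fun e => h1 (iff_of_false e x4)
  let s := LinearEquiv.funCongrLeft F F (Equiv.swap (3 : Fin 5) 4)
  have hs : s ∈ isom (uForm hF 5) := fun x y => by
    simp [s, bf, LinearMap.funLeft_apply, Equiv.swap_apply_def]; ring
  have hs' : ∀ y k, s y k = y (Equiv.swap 3 4 k) := fun _ _ => rfl
  obtain ⟨g, hg, f⟩ := (h.comp hs).stepA (x := s x)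
    (fun y h0 a b => h3 _ ((hs y y).trans h0) (by simpa [hs'] using b) (by simpa [hs'] using a))
    (by convert hx using 1; funext k; simp [hs']) (by simpa [hs'] using x4) (by simpa [hs'] using x3)
  exact ⟨s * g, mul_mem hs hg, ((h.comp hs).comp hg).stepB f⟩

end Sys

variable (hF) {n : ℕ} {P : Subgroup (GL (Fin n) F)}

theorem one_of_tr {c : F} (h : c + frob hF c = 0) (h0 : c ≠ 0) : c = 1 := by
  rw [frob_apply] at h
  exact mul_left_cancel₀ h0 (by linear_combination h - c * two0 hF)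

theorem tv_form2 (hU : P ≤ GU n F 2) {x : R n F} (hx : x ∈ DT P) : x.2 = frob hF ∘ x.1 := by
  obtain ⟨-, c, c0, hc, e⟩ := tv_form hF hU hx
  rw [e, one_of_tr hF hc c0, one_smul]

theorem full2 (hU : P ≤ GU n F 2) {x : R n F} (hx : x ∈ DT P) :
    FullU (P.map toLE.toMonoidHom) (uForm hF n) x.1 := by
  refine (full_iff hF).2 ⟨(tv_form hF hU hx).1, fun d hd => ?_⟩
  by_cases e : d = 0
  · rw [e, zero_smul]
    exact (tb P).zeroR (u := x.1) (φ := x.2) hx.1
  · rw [one_of_tr hF hd e, one_smul, ← tv_form2 hF hU hx]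
    exact hx.1

theorem three {P : Subgroup (GL (Fin 5) F)} (hU : P ≤ GU 5 F 2) {x y z : R 5 F} (hx : x ∈ DT P)
    (hy : y ∈ DT P) (hz : z ∈ DT P) (ht : frob hF (tau x y z) ≠ tau x y z) :
    ∃ g ∈ isom (uForm hF 5), ∀ v, uForm hF 5 v v = 0 → v 3 = 0 → v 4 = 0 →
      FullU (P.map toLE.toMonoidHom) (uForm hF 5) (g v) := by
  have h := isHerm_uForm hF 5
  let A : Matrix (Fin 5) (Fin 3) F := (of ![x.1, y.1, z.1])ᵀ
  have hH : ∀ i j, ((A.map (frob hF))ᵀ * A) i j =
      uForm hF 5 (![x.1, y.1, z.1] i) (![x.1, y.1, z.1] j) := fun i j => rfl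
  obtain ⟨C, hC⟩ := H25.Tv3.exists_orth h.ne_id h.invol (H := (A.map (frob hF))ᵀ * A)
    (fun i j => by rw [hH, hH, h.symm]) (fun h0 => ht (by
      have x0 := (full2 hF hU hx).1
      have y0 := (full2 hF hU hy).1
      have z0 := (full2 hF hU hz).1
      rw [det_fin_three] at h0
      simp only [hH] at h0
      simp only [Fin.isValue, cons_val_zero, cons_val_one, cons_val, x0, y0, z0] at h0
      rw [tau, tv_form2 hF hU hx, tv_form2 hF hU hy, tv_form2 hF hU hz]
      simp only [← uForm_eq, map_mul, h.symm]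
      linear_combination h0 - (uForm hF 5 x.1 y.1 * uForm hF 5 y.1 z.1 * uForm hF 5 z.1 x.1) * two0 hF))
  have hΦ : ((A * C).map (frob hF))ᵀ * (A * C) = 1 := by
    rw [← hC, Matrix.map_mul, transpose_mul]
    simp only [Matrix.mul_assoc]
  have hC' : C * ((C.map (frob hF))ᵀ * ((A.map (frob hF))ᵀ * A)) = 1 := mul_eq_one_comm.1 hC
  set C' := (C.map (frob hF))ᵀ * ((A.map (frob hF))ᵀ * A) with hC'def
  set U := A * C with hUdef
  have hup : ∀ (p : Fin 3 → F) (c : F), up U (U.map (frob hF))ᵀ (p, c • (frob hF ∘ p)) =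
      (U *ᵥ p, c • (frob hF ∘ (U *ᵥ p))) := fun p c => by
    refine Prod.ext rfl ?_
    change (c • (frob hF ∘ p)) ᵥ* _ = _
    rw [smul_vecMul, vecMul_transpose]
    congr 1
    funext i
    exact (RingHom.map_mulVec _ _ _ _).symm
  have hB : ∀ p p' : Fin 3 → F, (frob hF ∘ (U *ᵥ p)) ⬝ᵥ (U *ᵥ p') = (frob hF ∘ p) ⬝ᵥ p' :=
    fun p p' => by
      have := up_dot hΦ (p, (1 : F) • (frob hF ∘ p)) (p', (1 : F) • (frob hF ∘ p'))
      rw [hup, hup] at this
      simpa using this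
  have hfull : ∀ p : Fin 3 → F, FullU ((P.comap (thG hΦ)).map toLE.toMonoidHom) (uForm hF 3) p ↔
      FullU (P.map toLE.toMonoidHom) (uForm hF 5) (U *ᵥ p) := fun p => by
    rw [full_iff, full_iff, hB]
    simp only [tv_comap, hup]
  have hcol : ∀ j, U *ᵥ (C'ᵀ j) = ![x.1, y.1, z.1] j := fun j => by
    have : U * C' = A := by rw [hUdef, Matrix.mul_assoc, hC', Matrix.mul_one]
    funext i
    exact congrFun (congrFun this i) j
  have hall := H25.Tv3.fullU_all hF (a := C'ᵀ 0) (b := C'ᵀ 1) (c := C'ᵀ 2)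
    ((hfull _).2 (hcol 0 ▸ full2 hF hU hx)) ((hfull _).2 (hcol 1 ▸ full2 hF hU hy))
    ((hfull _).2 (hcol 2 ▸ full2 hF hU hz)) (fun h0 => by
      have b2 : C'ᵀ.det = 0 := by
        rw [← h0, triple_product_permutation, triple_product_eq_det]
        congr 1; ext i j; fin_cases i <;> rfl
      have := congrArg det hC'
      rw [det_mul, ← det_transpose C', b2] at this
      simp at this)
  have o1 : ∀ i j : Fin 3, uForm hF 5 (Pi.single (Fin.castLE (by norm_num) i) 1)
      (Pi.single (Fin.castLE (by norm_num) j) 1) = if i = j then 1 else 0 := fun i j => by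
    simp [stdForm_single_left, Pi.single_apply]
  have o2 : ∀ i j : Fin 3, uForm hF 5 (U *ᵥ Pi.single i 1) (U *ᵥ Pi.single j 1) =
      if i = j then 1 else 0 := fun i j => by
    rw [uForm_eq, hB, ← uForm_eq]
    simp [stdForm_single_left, Pi.single_apply]
  obtain ⟨g, hg, e⟩ := h.witt_family (h.linearIndependent_of_orthonormal o1)
    (h.linearIndependent_of_orthonormal o2) fun i j => (o1 i j).trans (o2 i j).symm
  refine ⟨g, hg, fun v h0 v3 v4 => ?_⟩
  have e1 : v = ∑ i : Fin 3, ![v 0, v 1, v 2] i • Pi.single (Fin.castLE (by norm_num) i) 1 := by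
    funext k
    rw [Fin.sum_univ_three]
    change _ = (v 0 • Pi.single 0 1 + v 1 • Pi.single 1 1 + v 2 • Pi.single 2 1 : Fin 5 → F) k
    fin_cases k <;> simp [v3, v4]
  have e2 : g v = U *ᵥ ![v 0, v 1, v 2] := by
    conv_lhs => rw [e1]
    simp only [map_sum, map_smul, e, ← mulVec_smul, ← mulVec_sum]
    congr 1
    funext k
    fin_cases k <;> simp [Fin.sum_univ_three]
  rw [e2, ← hfull]
  refine hall _ ?_
  rw [uForm_eq, ← hB, ← e2]
  exact (hg v v).trans h0

theorem not_mono {P : Subgroup (GL (Fin 5) F)} (hP : QS P) (hU : P ≤ GU 5 F 2)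
    {g : (Fin 5 → F) ≃ₗ[F] (Fin 5 → F)} (hg : g ∈ isom (uForm hF 5))
    (f : Fr (fun x => FullU (P.map toLE.toMonoidHom) (uForm hF 5) (g x)) 0 1) :
    ∃ x, FullU (P.map toLE.toMonoidHom) (uForm hF 5) (g x) ∧ x ≠ 0 ∧ ¬ W2 x := by
  by_contra! hn
  have h := isHerm_uForm hF 5
  have h2 := two0 hF
  obtain ⟨ω, ω0, hω⟩ := exists_om hF
  let e : Fin 5 → Fin 5 → F := fun i => g (Pi.single i 1)
  have he : ∀ i j, uForm hF 5 (e i) (e j) = if i = j then 1 else 0 := fun i j => by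
    rw [mem_isom.1 hg]
    simp [stdForm_single_left, Pi.single_apply]
  let E : Fin 5 → Matrix (Fin 5) (Fin 5) F := fun i => N (e i, frob hF ∘ e i)
  have hE : ∀ i v, E i *ᵥ v = uForm hF 5 (e i) v • e i := fun i v => N_mulVec _ _
  have hT : ∀ p, FullU (P.map toLE.toMonoidHom) (uForm hF 5) p → Tv P (p, frob hF ∘ p) :=
    fun p hp => by simpa using ((full_iff hF).1 hp).2 1 (by simpa [one_add_one_eq_two] using h2)
  have hs : ∀ i (a : F), g (Pi.single i a) = a • e i := fun i a => by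
    rw [← map_smul, ← Pi.single_smul', smul_eq_mul, mul_one]
  have ext : ∀ {A B : Matrix (Fin 5) (Fin 5) F}, (∀ v, A *ᵥ v = B *ᵥ v) → A = B := fun H =>
    Matrix.toLin'.injective (LinearMap.ext H)
  have e0 : ∀ i j (a b : F), i ≠ j → a ≠ 0 → a • e i + b • e j ≠ 0 := fun i j a b hij ha h0 => by
    have := congrArg (uForm hF 5 (e i)) h0
    simp [he, hij, ha] at this
  have t1 := hT _ (f 1 1 one_ne_zero one_ne_zero)
  have t2 := hT _ (f 1 ω one_ne_zero ω0)
  rw [map_add, hs, hs] at t1 t2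
  have hle := le_genT hP (S := fun u φ => (u, φ) ∈ DT P) (fun _ _ h => h.1)
    (fun g hg u φ h => ⟨TV.conj hg h.1, mulVec_ne g h.2.1, vecMul_ne g⁻¹ h.2.2⟩)
    ⟨t1, e0 0 1 1 1 (by decide) one_ne_zero, fun h0 => e0 0 1 1 1 (by decide) one_ne_zero
      (funext fun i => (map_eq_zero (frob hF)).1 (congrFun h0 i))⟩
    (e0 0 1 1 1 (by decide) one_ne_zero) fun h0 => e0 0 1 1 1 (by decide) one_ne_zero
      (funext fun i => (map_eq_zero (frob hF)).1 (congrFun h0 i))
  have one : ∀ i j (a b : F), i ≠ j → a ≠ 0 → b ≠ 0 →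
      (1 + N (a • e i + b • e j, frob hF ∘ (a • e i + b • e j))) * E i =
        E j * (1 + N (a • e i + b • e j, frob hF ∘ (a • e i + b • e j))) := fun i j a b hij ha hb =>
    ext fun v => by
      rw [← mulVec_mulVec, ← mulVec_mulVec, hE, hE, tv_mulVec, tv_mulVec]
      simp only [← uForm_eq, map_add, map_smul, LinearMap.add_apply, form_smul_left, he,
        hij.symm, frob_apply, if_true, if_false, smul_eq_mul]
      match_scalars
      · linear_combination (uForm hF 5 (e i) v) * (cube hF ha + h2)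
      · linear_combination (-uForm hF 5 (e j) v) * (cube hF hb + h2)
  have perm : ∀ k ∈ P, ∀ i, ∃ j, k.val * E i = E j * k.val := fun k hk => by
    refine genT_induction (p := fun A => ∀ i, ∃ j, A * E i = E j * A) (fun _ _ h => h.1.1)
      (fun i => ⟨i, by simp⟩) (fun u φ hu A hA => ?_) (hle hk)
    have e1 : -u = u := by rw [neg_eq_iff_add_eq_zero, ← two_smul F, h2, zero_smul]
    rw [e1, and_self]
    obtain ⟨x, rfl⟩ := g.surjective u
    obtain rfl : φ = frob hF ∘ g x := tv_form2 hF hU hu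
    obtain ⟨i, j, a, b, hij, ha, hb, rfl⟩ := hn x (full2 hF hU hu) fun e => hu.2.1 (by simp [e])
    intro m
    obtain ⟨k, hk⟩ := hA m
    simp only [map_add, hs, Matrix.mul_assoc, hk]
    simp only [← Matrix.mul_assoc]
    by_cases e1 : k = i
    · exact ⟨j, by rw [e1, one i j a b hij ha hb]⟩
    by_cases e2 : k = j
    · exact ⟨i, by rw [e2, add_comm (a • e i), one j i b a hij.symm hb ha]⟩
    refine ⟨k, congrArg (· * A) (ext fun v => ?_)⟩
    rw [← mulVec_mulVec, ← mulVec_mulVec, hE, hE, tv_mulVec, tv_mulVec]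
    simp [← uForm_eq, he, e1, e2, Ne.symm e1, Ne.symm e2]
  let L : Subgroup (GL (Fin 5) F) := P ⊓
    { carrier := {k | ∀ i, k.val * E i = E i * k.val}
      one_mem' := fun i => by simp
      mul_mem' := fun {a b} ha hb i => by
        rw [Units.val_mul, Matrix.mul_assoc, hb, ← Matrix.mul_assoc, ha, Matrix.mul_assoc]
      inv_mem' := fun {a} ha i => (Commute.units_inv_left (ha i)).eq }
  let d := tv _ _ t2.1 * tv _ _ t1.1
  have hd : ∀ v, d.val *ᵥ v = v + (ω * uForm hF 5 (e 0) v) • e 0 +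
      ((ω + 1) * uForm hF 5 (e 1) v) • e 1 := fun v => by
    rw [Units.val_mul, ← mulVec_mulVec, tv_val, tv_val, tv_mulVec, tv_mulVec]
    simp only [← uForm_eq, map_add, map_smul, LinearMap.add_apply, form_smul_left, he,
      frob_apply, if_true, smul_eq_mul, Fin.zero_eq_one_iff, Fin.one_eq_zero_iff]
    simp
    match_scalars
    · rfl
    · linear_combination uForm hF 5 (e 0) v * hω +
        (uForm hF 5 (e 0) v * (1 - ω) + uForm hF 5 (e 1) v * (1 + ω ^ 2)) * h2
    · linear_combination uForm hF 5 (e 0) v * cube hF ω0 +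
        (uForm hF 5 (e 0) v * (1 + ω) + uForm hF 5 (e 1) v * ω ^ 3) * h2
  have hL := le_of_normal hP (L := L) inf_le_left (fun k hk x hx =>
    ⟨P.mul_mem (P.mul_mem hk hx.1) (P.inv_mem hk), fun i => by
      obtain ⟨j, hj⟩ := perm _ (inv_mem hk) i
      have h3 : k.val * E j = E i * k.val := by
        calc k.val * E j = k.val * (E j * (k⁻¹).val) * k.val := by simp [Matrix.mul_assoc]
          _ = E i * k.val := by rw [← hj]; simp [← Matrix.mul_assoc]
      rw [Units.val_mul, Units.val_mul, Matrix.mul_assoc, hj, Matrix.mul_assoc,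
        ← Matrix.mul_assoc x.val, hx.2, ← Matrix.mul_assoc, ← Matrix.mul_assoc, h3]
      simp only [Matrix.mul_assoc]⟩) fun hs => by
      obtain ⟨c, hc⟩ := (mem_scalars_iff d).1 <| hs (show d ∈ L from ⟨mul_mem (TV.mem t2) (TV.mem t1), fun i => ext fun v => by
        rw [← mulVec_mulVec, ← mulVec_mulVec, hE, hE, hd, hd]
        by_cases e1 : i = 0
        · simp [e1, he, add_smul, mul_comm]
        by_cases e2 : i = 1
        · simp [e2, he, add_smul, mul_comm]
        simp [he, e1, e2, Ne.symm e1, Ne.symm e2]⟩)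
      have a1 := congrArg (uForm hF 5 (e 0)) (hd (e 0))
      have a2 := congrArg (uForm hF 5 (e 2)) (hd (e 2))
      rw [hc] at a1 a2
      simp [he, smul_mulVec] at a1 a2
      exact ω0 (by rw [a2] at a1; simpa using a1)
  obtain ⟨c, hc⟩ := exists_smul_of_commute_gspan hP.span (b := E 0) fun k hk => ((hL hk).2 0).symm
  exact N_ne_smul_one (by norm_num) (fun h0 => by
    have := congrArg (fun A => uForm hF 5 (e 0) (A *ᵥ e 0)) h0
    simp [N_mulVec, ← uForm_eq, he] at this) c hc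

theorem jobT2 : JobT2.{u} := by
  intro F _ _ P hP hF hU ⟨x, y, z, hx, hy, hz, h0, h1⟩ g hg
  have h := isHerm_uForm hF 5
  obtain ⟨hx, hy, hz⟩ := tau_zero hx hy hz h0
  have hS : Sys hF (FullU (P.map toLE.toMonoidHom) (uForm hF 5)) :=
    { smul := fun hx a => hx.smul h a
      mv := fun hp hr => by simpa using hp.move h hr (c := 1) (by
        simpa [one_add_one_eq_two] using two0 hF)
      iso := fun hp => hp.1
      out := fun W a b => by
        obtain ⟨u, φ, h1, h2, w, hw, h4⟩ := out_tv hP (u := x.1) (φ := x.2) hx.1 hx.2.1 hx.2.2 W a b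
        have hu : (u, φ) ∈ DT P := ⟨h1, by rintro rfl; exact h2 (Submodule.zero_mem _), left_ne h4⟩
        exact ⟨u, full2 hF hU hu, h2, w, hw, by rwa [uForm_eq, ← tv_form2 hF hU hu]⟩ }
  obtain ⟨g1, a1, b1⟩ := three hF hU hx hy hz fun e => h1 (one_of_tr hF (by
    rw [e, ← two_mul, two0 hF, zero_mul]) h0)
  obtain ⟨g2, a2, b2⟩ := (hS.comp a1).frame b1
  obtain ⟨v, c1, c2, c3⟩ := not_mono hF hP hU (mul_mem a1 a2) (b2 0 1 (by decide))
  obtain ⟨g', hg', e⟩ := mem_of_forall_fullU h (Or.inl (by simp)) (fun p hp => by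
    obtain ⟨p, rfl⟩ := (g1 * g2).surjective p
    exact ((hS.comp a1).comp a2).stepC b2 c1 c2 c3 ((mul_mem a1 a2 p p).symm.trans hp)) _
    ((mem_su_iff hF g).1 hg)
  exact toLE.injective e ▸ hg'

end H55.LD
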