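import Cfsg.Agent.H54.T5Base
import Cfsg.Agent.H25.TvSU
import Cfsg.Agent.H62.UComp

/-! LD5, slot TU: groups generated by transvections with symmetric pairs (the unitary case). -/

set_option autoImplicit false

open Matrix Cfsg Cfsg.Geo H19 H41.LD H54.T5
open scoped MatrixGroups

namespace H55.LD

universe u

variable {F : Type u} [Field F] {n : ℕ} {P : Subgroup (GL (Fin n) F)} {k : Subfield F}
  {x y z : R n F}

/-- non-trivial transvections -/
def DT (P : Subgroup (GL (Fin n) F)) : Set (R n F) := {x | Tv P x ∧ x.1 ≠ 0 ∧ x.2 ≠ 0}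

theorem sym (hA : ¬ Asym P) (hx : x ∈ DT P) (hy : y ∈ DT P) (h : x.2 ⬝ᵥ y.1 = 0) :
    y.2 ⬝ᵥ x.1 = 0 := by
  by_contra h1
  exact hA ⟨y, x, hy.1, hx.1, hy.2.1, hx.2.2, h1, h⟩

theorem dt_conj (hx : Tv P x) (hy : y ∈ DT P) :
    (y.1 + (x.2 ⬝ᵥ y.1) • x.1, y.2 - (y.2 ⬝ᵥ x.1) • x.2) ∈ DT P := by
  have e := cg_tv (u := x.1) (φ := x.2) hx.1 y.1 y.2
  refine ⟨(tb P).conj (u := x.1) (φ := x.2) (w := y.1) (ψ := y.2) hx hy.1, ?_, ?_⟩
  · have := mulVec_ne (tv x.1 x.2 hx.1) hy.2.1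
    rwa [tv_val, tv_mulVec] at this
  · have := vecMul_ne (tv x.1 x.2 hx.1)⁻¹ hy.2.2
    rw [tv_inv_val, vecMul_tv] at this
    simpa [sub_eq_add_neg] using this

theorem tau_frob {σ : F →+* F} (hσ : ∀ a, σ a = a ↔ a ∈ k) (hS : TS P k) (hL : Lam P k)
    (hA : ¬ Asym P) (hx : x ∈ DT P) (hy : y ∈ DT P) (hz : z ∈ DT P) :
    σ (tau x y z) = -tau x z y := by
  by_cases a1 : x.2 ⬝ᵥ y.1 = 0
  · simp [tau, a1, sym hA hx hy a1]
  by_cases a2 : y.2 ⬝ᵥ z.1 = 0
  · simp [tau, a2, sym hA hy hz a2]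
  by_cases a3 : z.2 ⬝ᵥ x.1 = 0
  · simp [tau, a3, sym hA hz hx a3]
  have l12 := hL x y hx.1 hy.1
  have l23 := hL y z hy.1 hz.1
  have l13 := hL x z hx.1 hz.1
  have l4 := hL _ z (dt_conj hy.1 hx).1 hz.1
  have p1 := (hσ _).2 (mul_mem (mul_mem l12 l23) l13)
  have p2 := (hσ _).2 (add_mem (sub_mem l4 l13) (mul_mem l12 l23))
  rw [← tau_mul, map_mul] at p1
  have e : cc (x.1 + (y.2 ⬝ᵥ x.1) • y.1, x.2 - (x.2 ⬝ᵥ y.1) • y.2) z - cc x z + cc x y * cc y z =
      tau x z y - tau x y z := by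
    simp only [cc, tau, dotProduct_add, sub_dotProduct, smul_dotProduct, dotProduct_smul,
      smul_eq_mul]
    ring
  rw [e, map_sub] at p2
  by_contra hc
  have p3 : σ (tau x y z) = tau x y z := mul_right_cancel₀ (sub_ne_zero.2 hc)
    (by linear_combination p1 - σ (tau x y z) * p2)
  have t0 : tau x y z ≠ 0 := mul_ne_zero (mul_ne_zero a1 a2) a3
  have h4 := dt_conj (x := ((cc x z / tau x y z) • y.1, y.2))
    ((hS y hy.1 hy.2.1 hy.2.2 _).2 (div_mem l13 ((hσ _).1 p3))) hx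
  have h5 := sym hA h4 hz (by
    simp only [cc, tau, sub_dotProduct, smul_dotProduct, dotProduct_smul, smul_eq_mul]
    field_simp
    ring)
  refine hc (p3.trans ?_)
  simp only [cc, tau, dotProduct_add, dotProduct_smul, smul_eq_mul] at h5 ⊢
  field_simp at h5
  linear_combination h5

theorem tau_zero (hx : Tv P x) (hy : Tv P y) (hz : Tv P z) (h : tau x y z ≠ 0) :
    x ∈ DT P ∧ y ∈ DT P ∧ z ∈ DT P := by
  have a1 : x.2 ⬝ᵥ y.1 ≠ 0 := fun e => h (by simp [tau, e])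
  have a2 : y.2 ⬝ᵥ z.1 ≠ 0 := fun e => h (by simp [tau, e])
  have a3 : z.2 ⬝ᵥ x.1 ≠ 0 := fun e => h (by simp [tau, e])
  exact ⟨⟨hx, right_ne a3, left_ne a1⟩, ⟨hy, right_ne a1, left_ne a2⟩, hz, right_ne a2, left_ne a3⟩

theorem cyc (hC : JobCyc.{u}) {P : Subgroup (GL (Fin 5) F)} (hP : QS P) (hT : ¬ NoTv P)
    (hA : ¬ Asym P) (S : Subring (F × F)) (h1 : ((-1 : F), (-1 : F)) ∈ S)
    (h2 : ∀ x ∈ DT P, ∀ y ∈ DT P, (cc x y, cc x y) ∈ S ∧ ((cc x y)⁻¹, (cc x y)⁻¹) ∈ S)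
    (h3 : ∀ x ∈ DT P, ∀ y ∈ DT P, ∀ z ∈ DT P, (tau x y z, -tau x z y) ∈ S) :
    ∀ g ∈ P, (trc g, trc g⁻¹) ∈ S := by
  obtain ⟨x0, h0, a1, a2⟩ : ∃ x, Tv P x ∧ x.1 ≠ 0 ∧ x.2 ≠ 0 := by
    by_contra! hn
    exact hT fun x hx => or_iff_not_imp_left.2 (hn x hx)
  have hle := le_genT hP (S := fun u φ => (u, φ) ∈ DT P) (fun _ _ h => h.1)
    (fun g hg u φ h => ⟨TV.conj hg h.1, mulVec_ne g h.2.1, vecMul_ne g⁻¹ h.2.2⟩)
    (u := x0.1) (φ := x0.2) ⟨h0, a1, a2⟩ a1 a2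
  refine fun g hg => hC F 5 S (-1) (DT P) _ (by ring) ?_ (fun x hx y hy => ?_) (fun x hx => ?_) h1 h2
    (fun x hx y hy z hz => by simpa using h3 x hx y hy z hz)
    (fun x hx y hy h => Or.inl (sym hA hx hy h)) g (hle hg)
  · rintro g ⟨u, φ, h, e⟩
    refine ⟨(u, φ), h, e, ?_⟩
    obtain rfl : g = tv u φ h.1.1 := Units.ext e
    rw [tv_inv_val, N_neg_left]
    simp
  · simpa [sub_eq_add_neg] using dt_conj hx.1 hy
  · rw [hx.1.1, mul_zero]
    exact S.zero_mem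

/-- pairs exchanged by `σ` -/
def frobS (σ : F →+* F) : Subring (F × F) :=
  RingHom.eqLocus (σ.comp (RingHom.fst F F)) (RingHom.snd F F) ⊓
    RingHom.eqLocus (σ.comp (RingHom.snd F F)) (RingHom.fst F F)

theorem mem_frobS {σ : F →+* F} {a b : F} : (a, b) ∈ frobS σ ↔ σ a = b ∧ σ b = a := Iff.rfl

section unitary

open H59 H62

variable [Fintype F] {q : ℕ} (hF : Fintype.card F = q ^ 2)

theorem uForm_eq (u v : Fin n → F) : uForm hF n u v = (frob hF ∘ u) ⬝ᵥ v := rfl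

theorem full_iff {p : Fin n → F} : FullU (P.map toLE.toMonoidHom) (uForm hF n) p ↔
    (frob hF ∘ p) ⬝ᵥ p = 0 ∧ ∀ c, c + frob hF c = 0 → Tv P (p, c • (frob hF ∘ p)) := by
  refine and_congr_right fun h0 => forall₂_congr fun c _ => ⟨?_, fun h => ?_⟩
  · rintro ⟨_, ⟨g, hg, rfl⟩, hx⟩
    refine ⟨by simp [← uForm_eq, h0], g, hg, Matrix.toLin'.injective (LinearMap.ext fun v => ?_)⟩
    rw [toLin'_apply, toLin'_apply, tv_mulVec, smul_dotProduct]
    exact hx v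
  · obtain ⟨g, hg, e⟩ := h.2
    refine ⟨_, ⟨g, hg, rfl⟩, fun v => ?_⟩
    change g.val *ᵥ v = _
    rw [e, tv_mulVec, smul_dotProduct]
    rfl

theorem tv_form (hU : P ≤ GU n F q) (hx : x ∈ DT P) :
    (frob hF ∘ x.1) ⬝ᵥ x.1 = 0 ∧ ∃ c, c ≠ 0 ∧ c + frob hF c = 0 ∧ x.2 = c • (frob hF ∘ x.1) := by
  have h := isHerm_uForm hF n
  obtain ⟨g, hg, e⟩ := hx.1.2
  have hi : ∀ v w, uForm hF n (v + (x.2 ⬝ᵥ v) • x.1) (w + (x.2 ⬝ᵥ w) • x.1) = uForm hF n v w :=
    fun v w => by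
      have := (mem_GU_iff hF n g).1 (hU hg) v w
      rwa [glEquiv_apply, glEquiv_apply, e, tv_mulVec, tv_mulVec] at this
  simp only [map_add, LinearMap.add_apply, form_smul_left, map_smul, smul_eq_mul] at hi
  obtain ⟨w0, hw0⟩ := exists_dot_one hx.2.2
  rw [dotProduct_comm] at hw0
  have h0 : uForm hF n x.1 x.1 = 0 := by
    have := hi x.1 w0
    rw [hx.1.1, hw0] at this
    simpa using this
  obtain ⟨v0, hv0⟩ : ∃ v0, uForm hF n v0 x.1 ≠ 0 := by
    by_contra! hn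
    exact hx.2.1 (h.nondeg' _ hn)
  have h1 : uForm hF n ((frob hF (uForm hF n v0 x.1)⁻¹) • v0) x.1 = 1 := by
    rw [form_smul_left, h.invol, inv_mul_cancel₀ hv0]
  generalize (frob hF (uForm hF n v0 x.1)⁻¹) • v0 = v at h1
  have h2 : ∀ w, x.2 ⬝ᵥ w = -frob hF (x.2 ⬝ᵥ v) * uForm hF n x.1 w := fun w => by
    have := hi v w
    rw [h0, h1] at this
    linear_combination this
  have h3 : uForm hF n x.1 v = 1 := by rw [← h.symm, h1, map_one]
  have h4 : x.2 = -frob hF (x.2 ⬝ᵥ v) • (frob hF ∘ x.1) := funext fun i => by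
    have := h2 (Pi.single i 1)
    rw [uForm_eq] at this
    simpa using this
  refine ⟨h0, _, fun hc => hx.2.2 (by rw [h4, hc, zero_smul]), ?_, h4⟩
  have := h2 v
  rw [h3] at this
  rw [map_neg, h.invol]
  linear_combination -this

theorem full_of (hk : ∀ a, frob hF a = a ↔ a ∈ k) (hU : P ≤ GU n F q) (hS : TS P k)
    (hx : x ∈ DT P) : FullU (P.map toLE.toMonoidHom) (uForm hF n) x.1 := by
  obtain ⟨h0, c, c0, hc, e⟩ := tv_form hF hU hx
  refine (full_iff hF).2 ⟨h0, fun d hd => ?_⟩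
  have h1 := (hS x hx.1 hx.2.1 hx.2.2 (d / c)).2 ((hk _).1 (by
    rw [map_div₀, eq_neg_of_add_eq_zero_right hd, eq_neg_of_add_eq_zero_right hc, neg_div_neg_eq]))
  have h2 := ((tb P).smul_iff (u := x.1) (φ := x.2) (d / c)).1 h1
  rwa [e, smul_smul, div_mul_cancel₀ _ c0] at h2

theorem su_le {P : Subgroup (GL (Fin 5) F)} (hP : QS P) (hk : ∀ a, frob hF a = a ↔ a ∈ k)
    (h3 : ∃ τ ∈ k, τ ≠ 0 ∧ τ ≠ 1) (hU : P ≤ GU 5 F q) (hS : TS P k) {x y z : R 5 F} (hx : Tv P x)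
    (hy : Tv P y) (hz : Tv P z) (ht : tau x y z ∉ k) : GU 5 F q ⊓ specialLinear (Fin 5) F ≤ P := by
  have h := isHerm_uForm hF 5
  obtain ⟨hx, hy, hz⟩ := tau_zero hx hy hz fun e => ht (e ▸ k.zero_mem)
  let A : Matrix (Fin 5) (Fin 3) F := (of ![x.1, y.1, z.1])ᵀ
  have hH : ∀ i j, ((A.map (frob hF))ᵀ * A) i j =
      uForm hF 5 (![x.1, y.1, z.1] i) (![x.1, y.1, z.1] j) := fun i j => rfl
  obtain ⟨C, hC⟩ := H25.Tv3.exists_orth h.ne_id h.invol (H := (A.map (frob hF))ᵀ * A)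
    (fun i j => by rw [hH, hH, h.symm]) (fun h0 => ht ((hk _).1 (by
      obtain ⟨x0, c1, -, d1, e1⟩ := tv_form hF hU hx
      obtain ⟨y0, c2, -, d2, e2⟩ := tv_form hF hU hy
      obtain ⟨z0, c3, -, d3, e3⟩ := tv_form hF hU hz
      rw [det_fin_three] at h0
      simp only [hH] at h0
      rw [← uForm_eq] at x0 y0 z0
      simp only [Fin.isValue, cons_val_zero, cons_val_one, cons_val, x0, y0, z0] at h0
      rw [tau, e1, e2, e3]
      simp only [smul_dotProduct, smul_eq_mul, ← uForm_eq, map_mul, h.symm,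
        eq_neg_of_add_eq_zero_right d1, eq_neg_of_add_eq_zero_right d2,
        eq_neg_of_add_eq_zero_right d3]
      linear_combination (-(c1 * c2 * c3)) * h0)))
  have hΦ : ((A * C).map (frob hF))ᵀ * (A * C) = 1 := by
    rw [← hC, Matrix.map_mul, transpose_mul]
    simp only [Matrix.mul_assoc]
  have hC' : C * ((C.map (frob hF))ᵀ * ((A.map (frob hF))ᵀ * A)) = 1 := mul_eq_one_comm.1 hC
  set C' := (C.map (frob hF))ᵀ * ((A.map (frob hF))ᵀ * A) with hC'def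
  set U := A * C with hUdef
  have hup : ∀ (p : Fin 3 → F) (c : F), up U (U.map (frob hF))ᵀ (p, c • (frob hF ∘ p)) =
      (U *ᵥ p, c • (frob hF ∘ (U *ᵥ p))) := fun p c => by
    refine Prod.ext rfl ?_
    change (c • (frob hF ∘ p)) ᵥ* _ = _
    rw [smul_vecMul, vecMul_transpose]
    congr 1
    funext i
    exact (RingHom.map_mulVec _ _ _ _).symm
  have hB : ∀ p p' : Fin 3 → F, (frob hF ∘ (U *ᵥ p)) ⬝ᵥ (U *ᵥ p') = (frob hF ∘ p) ⬝ᵥ p' :=
    fun p p' => by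
      have := up_dot hΦ (p, (1 : F) • (frob hF ∘ p)) (p', (1 : F) • (frob hF ∘ p'))
      rw [hup, hup] at this
      simpa using this
  have hfull : ∀ p : Fin 3 → F, FullU ((P.comap (thG hΦ)).map toLE.toMonoidHom) (uForm hF 3) p ↔
      FullU (P.map toLE.toMonoidHom) (uForm hF 5) (U *ᵥ p) := fun p => by
    rw [full_iff, full_iff, hB]
    simp only [tv_comap, hup]
  have hcol : ∀ j, U *ᵥ (C'ᵀ j) = ![x.1, y.1, z.1] j := fun j => by
    have : U * C' = A := by rw [hUdef, Matrix.mul_assoc, hC', Matrix.mul_one]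
    funext i
    exact congrFun (congrFun this i) j
  have hall := H25.Tv3.fullU_all hF (a := C'ᵀ 0) (b := C'ᵀ 1) (c := C'ᵀ 2)
    ((hfull _).2 (hcol 0 ▸ full_of hF hk hU hS hx)) ((hfull _).2 (hcol 1 ▸ full_of hF hk hU hS hy))
    ((hfull _).2 (hcol 2 ▸ full_of hF hk hU hS hz)) (fun h0 => by
      have b2 : C'ᵀ.det = 0 := by
        rw [← h0, triple_product_permutation, triple_product_eq_det]
        congr 1; ext i j; fin_cases i <;> rfl
      have := congrArg det hC'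
      rw [det_mul, ← det_transpose C', b2] at this
      simp at this)
  let W := LinearMap.range (toLin' U)
  have hW : Disjoint W (perp (uForm hF 5) W) := Submodule.disjoint_def.2 fun v ⟨p, hp⟩ hv => by
    have : p = 0 := (isHerm_uForm hF 3).nondeg' p fun p' => by
      rw [uForm_eq, ← hB]
      rw [← hp] at hv
      exact hv _ ⟨p', rfl⟩
    rw [← hp, this, map_zero]
  have hr : Module.finrank F W = 3 := by
    rw [LinearMap.finrank_range_of_inj fun a b e => up_inj1 hΦ e]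
    simp
  have hG : GoodU (P.map toLE.toMonoidHom) (uForm hF 5) W := ⟨hW, hr.ge,
    locSU_of_forall_fullU h hW (Or.inr (by
      obtain ⟨τ, a, b⟩ := h3
      exact ⟨τ, (hk τ).2 a, b⟩)) (by
      rintro _ ⟨p, rfl⟩ hp
      exact (hfull p).1 (hall p ((hB p p).symm.trans hp)))⟩
  have htop : uSub (P.map toLE.toMonoidHom) (uForm hF 5) W = ⊤ := by
    by_contra hn
    obtain ⟨u, φ, h1, h2, w, hw, h4⟩ := out_tv hP (u := x.1) (φ := x.2) hx.1 hx.2.1 hx.2.2 _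
      (fun e => by
        have := Submodule.finrank_mono (e ▸ hG.le_uSub h)
        rw [hr] at this
        simp at this) hn
    have hu : (u, φ) ∈ DT P := ⟨h1, by rintro rfl; exact h2 (Submodule.zero_mem _), left_ne h4⟩
    obtain ⟨-, c, -, -, e⟩ := tv_form hF hU hu
    have h5 := ((full_of hF hk hU hS hu).mem_uSub_or h W).resolve_left h2 w hw
    refine h4 ?_
    rw [show φ = _ from e, smul_dotProduct, ← uForm_eq, h.eq_zero_comm.1 h5, smul_zero]
  intro g hg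
  obtain ⟨g', hg', e⟩ := hG.mem_of_top h htop (by simp) _ ((mem_su_iff hF g).1 hg)
  exact toLE.injective e ▸ hg'

end unitary

theorem jobTU : JobTU.{u} := by
  intro hC F _ _ P k hP hT hS hL hA
  haveI := Fintype.ofFinite k
  let σ : F →+* F := FiniteField.frobeniusAlgHom k F
  have hσ0 : ∀ a, σ a = a ^ Nat.card k := fun a => by rw [Nat.card_eq_fintype_card]; rfl
  have hσ : ∀ a, σ a = a ↔ a ∈ k := fun a => by rw [hσ0, H25.Tv3.mem_iff_pow_card]
  refine ⟨fun g hg => ?_, ?_, fun q hq hF hk hU ⟨x, y, z, hx, hy, hz, ht⟩ => ?_⟩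
  · rw [← hσ0]
    refine (mem_frobS.1 (cyc hC hP hT hA (frobS σ) (by simp [mem_frobS]) (fun x hx y hy => ?_)
      (fun x hx y hy z hz => ?_) g hg)).1.symm
    · have := hL x y hx.1 hy.1
      simp only [mem_frobS, and_self, hσ]
      exact ⟨this, inv_mem this⟩
    · exact mem_frobS.2 ⟨tau_frob hσ hS hL hA hx hy hz, by
        rw [map_neg, tau_frob hσ hS hL hA hx hz hy, neg_neg]⟩
  · refine or_iff_not_imp_right.2 fun hn g hg => ?_
    push Not at hn
    exact (mem_frobS.1 (cyc hC hP hT hA (frobS (RingHom.id F)) (by simp [mem_frobS])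
      (fun x hx y hy => by simp [mem_frobS]) (fun x hx y hy z hz => by
        have h1 := tau_frob hσ hS hL hA hx hy hz
        rw [(hσ _).2 (hn x y z hx.1 hy.1 hz.1)] at h1
        simp [mem_frobS, h1]) g hg)).2
  · refine su_le hF hP (k := k) (fun a => by rw [← hσ, hσ0, hk]; rfl) ?_ hU hS hx hy hz ht
    by_contra! hn
    have : Nat.card k ≤ Nat.card (Fin 2) := Nat.card_le_card_of_surjective
      (fun i => ![(0 : k), 1] i) fun a => by
        by_cases e : (a : F) = 0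
        · exact ⟨0, Subtype.ext e.symm⟩
        · exact ⟨1, Subtype.ext (hn a a.2 e).symm⟩
    rw [Nat.card_fin] at this
    omega

end H55.LD
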