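/- Orthogonal groups of norm forms of quadratic algebras are dihedral. -/
import Cfsg.Agent.H56.OrthOrd
import Cfsg.Agent.H3.DihQuat

set_option autoImplicit false

namespace H55

open H56

theorem O_equiv_dihedral {F V A : Type*} [Field F] [AddCommGroup V] [Module F V] [CommRing A]
    [Nontrivial A] [Algebra F A] {Q : QuadraticForm F V} [Finite (O Q)] (σ : A →ₐ[F] A)
    (hσ : ∀ x, σ (σ x) = x) (hσ1 : ∃ x, σ x ≠ x) (e : V ≃ₗ[F] A)
    (he : ∀ v, algebraMap F A (Q v) = e v * σ (e v)) {u : A} (hu : u * σ u = 1) {n : ℕ}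
    (hn : orderOf u = n) (hc : Nat.card (O Q) = 2 * n) : Nonempty (O Q ≃* DihedralGroup n) := by
  have hinj := (algebraMap F A).injective
  let r : O Q := O.ofInv (e.symm.toLinearMap ∘ₗ LinearMap.mulLeft F u ∘ₗ e.toLinearMap)
    (e.symm.toLinearMap ∘ₗ LinearMap.mulLeft F (σ u) ∘ₗ e.toLinearMap)
    (fun x => hinj (by
      rw [he, he]; simp; linear_combination (e x * σ (e x)) * hu))
    (fun x => by simp [← mul_assoc, hu]) (fun x => by simp [← mul_assoc, (mul_comm _ _).trans hu])
  let s : O Q := O.ofInv (e.symm.toLinearMap ∘ₗ σ.toLinearMap ∘ₗ e.toLinearMap)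
    (e.symm.toLinearMap ∘ₗ σ.toLinearMap ∘ₗ e.toLinearMap)
    (fun x => hinj (by rw [he, he]; simp [hσ, mul_comm]))
    (fun x => by simp [hσ]) (fun x => by simp [hσ])
  have hr : ∀ (k : ℕ) x, e ((r ^ k) x) = u ^ k * e x := fun k x => by
    induction k with
    | zero => simp
    | succ k ih => rw [pow_succ', O.mul_apply, pow_succ', mul_assoc, ← ih]; simp [r]
  have hs : ∀ x, e (s x) = σ (e x) := fun x => by simp [s]
  have hss : s * s = 1 := O.ext fun x => e.injective (by rw [O.mul_apply, hs, hs, hσ]; rfl)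
  refine H3.nonempty_mulEquiv_dihedral_of_card (a := r) (b := s) ?_ (by rw [pow_two, hss]) ?_ ?_ hc
  · rw [← hn]
    refine orderOf_eq_orderOf_iff.2 fun k => ⟨fun h => ?_, fun h => O.ext fun x => e.injective ?_⟩
    · simpa [h] using (hr k (e.symm 1)).symm
    · rw [hr, h, one_mul]; rfl
  · rw [inv_eq_of_mul_eq_one_right hss, eq_inv_iff_mul_eq_one]
    refine O.ext fun x => e.injective ?_
    have h1 := fun x => hr 1 x
    simp only [pow_one] at h1
    rw [O.mul_apply, O.mul_apply, O.mul_apply, hs, h1, hs, h1, map_mul, hσ, O.one_apply]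
    linear_combination e x * hu
  · intro h
    obtain ⟨k, hk⟩ := mem_powers_iff_mem_zpowers.2 h
    obtain ⟨x, hx⟩ := hσ1
    have h1 := hr k (e.symm 1)
    have h2 := hr k (e.symm x)
    simp only at hk
    rw [hk, hs, e.apply_symm_apply] at h1 h2
    rw [map_one, mul_one] at h1
    exact hx (by rw [h2, ← h1, one_mul])

end H55
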