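import Cfsg.Agent.Base

/-! Abstract Shintani descent. -/

set_option autoImplicit false

namespace H55.Shin

variable {X : Type*} [Group X]

theorem mem_fix {σ : MulAut X} {x : X} :
    x ∈ (MulEquiv.toMonoidHom σ).eqLocus (MonoidHom.id X) ↔ σ x = x := Iff.rfl

theorem pow_comm (σ : MulAut X) (e : ℕ) (a : X) : σ ((σ ^ e) a) = (σ ^ e) (σ a) := by
  rw [← MulAut.mul_apply, ← MulAut.mul_apply, ← pow_succ, ← pow_succ']

theorem pow_fix {σ : MulAut X} {x : X} (h : σ x = x) (e : ℕ) : (σ ^ e) x = x := by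
  induction e with
  | zero => rfl
  | succ e ih => rw [pow_succ, MulAut.mul_apply, h, ih]

theorem norm_eq (σ : MulAut X) (a : X) (d : ℕ) :
    ((List.range d).map (fun i => (σ ^ i) (a * (σ a)⁻¹))).prod = a * ((σ ^ d) a)⁻¹ := by
  induction d with
  | zero => simp
  | succ d ih =>
    rw [List.range_succ, List.map_append, List.prod_append, ih, List.map_singleton,
      List.prod_singleton, map_mul, map_inv, pow_succ, MulAut.mul_apply]
    group

/-- `σ^e` fixes `a σ(a)⁻¹` iff `σ` fixes `σ^e(a)⁻¹ a`. -/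
theorem fix_iff (σ : MulAut X) (e : ℕ) (a : X) :
    (σ ^ e) (a * (σ a)⁻¹) = a * (σ a)⁻¹ ↔ σ (((σ ^ e) a)⁻¹ * a) = ((σ ^ e) a)⁻¹ * a := by
  rw [map_mul, map_inv, map_mul, map_inv, pow_comm]
  generalize (σ ^ e) (σ a) = u
  generalize (σ ^ e) a = v
  generalize σ a = w
  constructor
  · intro h
    calc u⁻¹ * w = v⁻¹ * (v * u⁻¹) * w := by group
      _ = _ := by rw [h]; group
  · intro h
    calc v * u⁻¹ = v * (u⁻¹ * w) * w⁻¹ := by group
      _ = _ := by rw [h]; group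

theorem pow_desc {σ : MulAut X} {e : ℕ} {a : X}
    (h : σ (((σ ^ e) a)⁻¹ * a) = ((σ ^ e) a)⁻¹ * a) (d : ℕ) :
    (((σ ^ e) ^ d) a)⁻¹ * a = (((σ ^ e) a)⁻¹ * a) ^ d := by
  induction d with
  | zero => simp
  | succ d ih =>
    have h1 := pow_fix (pow_fix h e) d
    rw [pow_succ' (_ * a) d, ← ih, pow_succ (σ ^ e), MulAut.mul_apply]
    rw [map_mul, map_inv] at h1
    rw [← h1]
    group

end H55.Shin
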